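import Mathlib
import Cfsg.Agent.Lib.Helper44.J3MultA

set_option autoImplicit false

namespace Cfsg.Agent.Lib.Helper63.J2MultA2

open scoped commutatorElement

/-- Variant of `Helper44.J3MultA.coreA`: the "good lift" hypothesis is only required for
lifts of involutions of `Q` and of the five elements `a₁, a₂, a₁a₂, a₁t, a₂t`. -/
theorem coreA2 {Γ G : Type*} [Group Γ] [Group G] (τ : Γ →* G) (hs : Function.Surjective τ)
    (hc : τ.ker ≤ Subgroup.center Γ) (h2 : ∀ k ∈ τ.ker, k * k = 1)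
    (t : G) (ht : t ≠ 1) (ht2 : t * t = 1)
    (Q : Subgroup G) (hQcard : Nat.card Q = 32)
    (hQsq : ∀ q ∈ Q, q * q = 1 ∨ q * q = t)
    (hQt : ∀ q ∈ Q, q * t = t * q)
    (hgQ : ∀ γ : Γ, τ γ ∈ Q → τ γ * τ γ = 1 → γ * γ = 1)
    (x₀ : G) (hx₀ : x₀ ∈ Q) (hx₀2 : x₀ * x₀ = t)
    (T : Set G) (hT : ∀ g ∈ T, g * t = t * g ∧ ∃ n : ℕ, Odd n ∧ g ^ n = 1)
    (hconj : ∀ q ∈ Q, q * q = t →
      ∃ g ∈ Subgroup.closure T, g * x₀ * g⁻¹ = q ∨ g * x₀ * g⁻¹ = q⁻¹)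
    (a₁ a₂ : G) (ha₁ : a₁ * a₁ = 1) (ha₂ : a₂ * a₂ = 1) (ha : a₁ * a₂ = a₂ * a₁)
    (ha₁t : a₁ * t = t * a₁) (ha₂t : a₂ * t = t * a₂)
    (hgA : ∀ γ : Γ, (τ γ = a₁ ∨ τ γ = a₂ ∨ τ γ = a₁ * a₂ ∨ τ γ = a₁ * t ∨ τ γ = a₂ * t) →
      γ * γ = 1)
    (hN₁ : ∀ q ∈ Q, a₁ * q * a₁⁻¹ ∈ Q) (hN₂ : ∀ q ∈ Q, a₂ * q * a₂⁻¹ ∈ Q)
    (q₀ : G) (hq₀ : q₀ ∈ Q)
    (hgen : Q = Subgroup.closure
      {q₀, a₁ * q₀ * a₁⁻¹, a₂ * q₀ * a₂⁻¹, (a₁ * a₂) * q₀ * (a₁ * a₂)⁻¹, t}) :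
    ⁅(Q ⊔ Subgroup.closure {a₁, a₂}).comap τ, (Q ⊔ Subgroup.closure {a₁, a₂}).comap τ⁆ ⊓ τ.ker
      = ⊥ := by
  classical
  have hker : ∀ k : Γ, τ k = 1 → ∀ γ : Γ, γ * k = k * γ := fun k hk γ =>
    Subgroup.mem_center_iff.mp (hc (MonoidHom.mem_ker.mpr hk)) γ
  have hker2 : ∀ k : Γ, τ k = 1 → k * k = 1 := fun k hk => h2 k (MonoidHom.mem_ker.mpr hk)
  obtain ⟨X₀, hX₀⟩ := hs x₀
  obtain ⟨s, hsdef⟩ : ∃ s : Γ, s = X₀ * X₀ := ⟨_, rfl⟩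
  have hτs : τ s = t := by rw [hsdef, map_mul, hX₀, hx₀2]
  have hsQ0 : τ s ∈ Q := by rw [hτs, ← hx₀2]; exact Q.mul_mem hx₀ hx₀
  have hss : s * s = 1 := hgQ s hsQ0 (by rw [hτs, ht2])
  have hsinv : s⁻¹ = s := inv_eq_of_mul_eq_one_right hss
  -- (1) lifts of closure T centralise s
  have h1a : ∀ g ∈ T, ∀ γ : Γ, τ γ = g → γ * s = s * γ := by
    intro g hg γ hγ
    obtain ⟨hgt, n, hn, hgn⟩ := hT g hg
    obtain ⟨ζ, hζ⟩ : ∃ ζ : Γ, ζ = γ * s * γ⁻¹ * s⁻¹ := ⟨_, rfl⟩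
    have hζk : τ ζ = 1 := by
      rw [hζ]; simp only [map_mul, map_inv, hγ, hτs]
      rw [hgt]; group
    have hζ2 := hker2 ζ hζk
    have hconj1 : γ * s * γ⁻¹ = ζ * s := by rw [hζ]; group
    have hpow : ∀ k : ℕ, γ ^ k * s * (γ ^ k)⁻¹ = ζ ^ k * s := by
      intro k
      induction k with
      | zero => simp
      | succ k ih =>
        have e : γ ^ (k + 1) * s * (γ ^ (k + 1))⁻¹ = γ * (γ ^ k * s * (γ ^ k)⁻¹) * γ⁻¹ := by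
          rw [pow_succ']; group
        rw [e, ih]
        have hc' : γ * ζ ^ k = ζ ^ k * γ :=
          hker (ζ ^ k) (by rw [map_pow, hζk, one_pow]) γ
        calc γ * (ζ ^ k * s) * γ⁻¹ = (γ * ζ ^ k) * s * γ⁻¹ := by group
          _ = ζ ^ k * (γ * s * γ⁻¹) := by rw [hc']; group
          _ = ζ ^ k * (ζ * s) := by rw [hconj1]
          _ = ζ ^ (k + 1) * s := by rw [pow_succ]; group
    have hγn : τ (γ ^ n) = 1 := by rw [map_pow, hγ, hgn]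
    have hn1 : γ ^ n * s * (γ ^ n)⁻¹ = s := by
      have h := hker (γ ^ n) hγn s
      rw [← h]; group
    have hζn : ζ ^ n = 1 := by
      have h := hpow n
      rw [hn1] at h
      exact mul_eq_right.mp h.symm
    have hζ1 : ζ = 1 := by
      obtain ⟨m, rfl⟩ := hn
      rw [pow_succ, pow_mul, pow_two, hζ2, one_pow, one_mul] at hζn
      exact hζn
    have h3 : γ * s * γ⁻¹ = s := by rw [hconj1, hζ1, one_mul]
    calc γ * s = (γ * s * γ⁻¹) * γ := by group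
      _ = s * γ := by rw [h3]
  have h1 : ∀ g ∈ Subgroup.closure T, ∀ γ : Γ, τ γ = g → γ * s = s * γ := by
    intro g hg
    induction hg using Subgroup.closure_induction with
    | mem g hg => exact h1a g hg
    | one => intro γ hγ; exact (hker γ hγ s).symm
    | mul g₁ g₂ _ _ ih₁ ih₂ =>
      intro γ hγ
      obtain ⟨γ₁, hγ₁⟩ := hs g₁
      have e2 : τ (γ₁⁻¹ * γ) = g₂ := by rw [map_mul, map_inv, hγ₁, hγ]; group
      have c1 := ih₁ γ₁ hγ₁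
      have c2 := ih₂ _ e2
      calc γ * s = γ₁ * ((γ₁⁻¹ * γ) * s) := by group
        _ = γ₁ * (s * (γ₁⁻¹ * γ)) := by rw [c2]
        _ = (γ₁ * s) * (γ₁⁻¹ * γ) := by group
        _ = s * γ₁ * (γ₁⁻¹ * γ) := by rw [c1]
        _ = s * γ := by group
    | inv g _ ih =>
      intro γ hγ
      have e : τ γ⁻¹ = g := by rw [map_inv, hγ, inv_inv]
      have c := ih _ e
      calc γ * s = γ * (s * γ⁻¹) * γ := by group
        _ = γ * (γ⁻¹ * s) * γ := by rw [c]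
        _ = s * γ := by group
  -- (2) squares in the preimage of Q
  have h2' : ∀ γ : Γ, τ γ ∈ Q → γ * γ = 1 ∨ γ * γ = s := by
    intro γ hγ
    rcases hQsq _ hγ with h | h
    · exact Or.inl (hgQ γ hγ h)
    · right
      obtain ⟨g, hg, hgx⟩ := hconj _ hγ h
      obtain ⟨δ, hδ⟩ := hs g
      have hδs := h1 g hg δ hδ
      have key : ∀ γ' : Γ, τ γ' = g * x₀ * g⁻¹ → γ' * γ' = s := by
        intro γ' hγ'
        obtain ⟨ζ, hζ⟩ : ∃ ζ : Γ, ζ = (δ * X₀ * δ⁻¹)⁻¹ * γ' := ⟨_, rfl⟩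
        have hζk : τ ζ = 1 := by
          rw [hζ]; simp only [map_mul, map_inv, hδ, hX₀, hγ']; group
        have hζc := hker ζ hζk (δ * X₀ * δ⁻¹)
        have hζ2 := hker2 ζ hζk
        have e : γ' = (δ * X₀ * δ⁻¹) * ζ := by rw [hζ]; group
        rw [e]
        calc (δ * X₀ * δ⁻¹) * ζ * ((δ * X₀ * δ⁻¹) * ζ)
            = (δ * X₀ * δ⁻¹) * (ζ * (δ * X₀ * δ⁻¹)) * ζ := by group
          _ = (δ * X₀ * δ⁻¹) * ((δ * X₀ * δ⁻¹) * ζ) * ζ := by rw [← hζc]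
          _ = δ * (X₀ * X₀) * δ⁻¹ * (ζ * ζ) := by group
          _ = δ * s * δ⁻¹ := by rw [hζ2, mul_one, hsdef]
          _ = s := by rw [hδs]; group
      rcases hgx with hgx | hgx
      · exact key γ (by rw [hgx])
      · have h4 := key γ⁻¹ (by rw [hgx, map_inv])
        have h5 : γ * γ = s⁻¹ := by rw [← h4, mul_inv_rev, inv_inv]
        rw [h5, hsinv]
  -- lifts of involutions commuting with t commute with s
  have hAs : ∀ (A : Γ), A * A = 1 → (A * s) * (A * s) = 1 → A * s = s * A := by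
    intro A hAA e2
    have hAinv : A⁻¹ = A := inv_eq_of_mul_eq_one_right hAA
    calc A * s = (A * s)⁻¹ := (inv_eq_of_mul_eq_one_right e2).symm
      _ = s⁻¹ * A⁻¹ := by group
      _ = s * A := by rw [hsinv, hAinv]
  -- (3) s is central in the preimage of Q
  have h3 : ∀ γ : Γ, τ γ ∈ Q → γ * s = s * γ := by
    intro γ hγ
    rcases h2' γ hγ with h | h
    · refine hAs γ h (hgQ _ ?_ ?_)
      · rw [map_mul]; exact Q.mul_mem hγ hsQ0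
      · rw [map_mul, hτs]
        have haa : τ γ * τ γ = 1 := by rw [← map_mul, h, map_one]
        calc τ γ * t * (τ γ * t) = τ γ * (t * τ γ) * t := by group
          _ = τ γ * (τ γ * t) * t := by rw [hQt _ hγ]
          _ = (τ γ * τ γ) * (t * t) := by group
          _ = 1 := by rw [haa, ht2, mul_one]
    · rw [← h]; group
  have hsQ : τ s ∈ Q := hsQ0
  have h3c : ∀ γ₁ γ₂ : Γ, τ γ₁ ∈ Q → τ γ₂ ∈ Q → ⁅γ₁, γ₂⁆ = 1 ∨ ⁅γ₁, γ₂⁆ = s := by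
    intro γ₁ γ₂ h₁ h₂
    have h12 : τ (γ₁ * γ₂) ∈ Q := by rw [map_mul]; exact Q.mul_mem h₁ h₂
    have e : ⁅γ₁, γ₂⁆ = (γ₁ * γ₂ * (γ₁ * γ₂)) * (γ₂⁻¹ * (γ₁ * γ₁)⁻¹ * γ₂) * (γ₂ * γ₂)⁻¹ := by
      rw [commutatorElement_def]; group
    have hs2 : γ₂⁻¹ * s * γ₂ = s := by
      calc γ₂⁻¹ * s * γ₂ = γ₂⁻¹ * (s * γ₂) := by group
        _ = γ₂⁻¹ * (γ₂ * s) := by rw [h3 γ₂ h₂]
        _ = s := by group
    have hcl : ∀ c : Γ, (c = 1 ∨ c = s) → c⁻¹ = c ∧ γ₂⁻¹ * c * γ₂ = c := by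
      rintro c (rfl | rfl)
      · simp
      · exact ⟨hsinv, hs2⟩
    obtain ⟨hv1, hv2⟩ := hcl _ (h2' _ h₁)
    obtain ⟨hw1, -⟩ := hcl _ (h2' _ h₂)
    rw [e, hv1, hv2, hw1]
    rcases h2' _ h12 with hu | hu <;> rcases h2' _ h₁ with hv | hv <;>
      rcases h2' _ h₂ with hw | hw <;> rw [hu, hv, hw] <;> simp [hss]
  -- (4) lifts of a₁, a₂, q₀
  obtain ⟨A₁, hA₁⟩ := hs a₁
  obtain ⟨A₂, hA₂⟩ := hs a₂
  obtain ⟨L₀, hL₀⟩ := hs q₀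
  have hA₁2 : A₁ * A₁ = 1 := hgA A₁ (Or.inl hA₁)
  have hA₂2 : A₂ * A₂ = 1 := hgA A₂ (Or.inr (Or.inl hA₂))
  have hA₁inv : A₁⁻¹ = A₁ := inv_eq_of_mul_eq_one_right hA₁2
  have hA₂inv : A₂⁻¹ = A₂ := inv_eq_of_mul_eq_one_right hA₂2
  have hA12 : A₁ * A₂ = A₂ * A₁ := by
    have e2 : (A₁ * A₂) * (A₁ * A₂) = 1 :=
      hgA _ (Or.inr (Or.inr (Or.inl (by rw [map_mul, hA₁, hA₂]))))
    calc A₁ * A₂ = (A₁ * A₂)⁻¹ := (inv_eq_of_mul_eq_one_right e2).symm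
      _ = A₂⁻¹ * A₁⁻¹ := by group
      _ = A₂ * A₁ := by rw [hA₁inv, hA₂inv]
  have hA₁s := hAs A₁ hA₁2
    (hgA _ (Or.inr (Or.inr (Or.inr (Or.inl (by rw [map_mul, hA₁, hτs]))))))
  have hA₂s := hAs A₂ hA₂2
    (hgA _ (Or.inr (Or.inr (Or.inr (Or.inr (by rw [map_mul, hA₂, hτs]))))))
  obtain ⟨b₁, hb₁⟩ : ∃ b : Γ, b = A₁ * L₀ * A₁ := ⟨_, rfl⟩
  obtain ⟨b₂, hb₂⟩ : ∃ b : Γ, b = A₂ * L₀ * A₂ := ⟨_, rfl⟩
  obtain ⟨b₃, hb₃⟩ : ∃ b : Γ, b = A₁ * A₂ * L₀ * (A₂ * A₁) := ⟨_, rfl⟩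
  have hτb₁ : τ b₁ = a₁ * q₀ * a₁⁻¹ := by
    rw [hb₁]; nth_rewrite 2 [← hA₁inv]; simp only [map_mul, map_inv, hA₁, hL₀]
  have hτb₂ : τ b₂ = a₂ * q₀ * a₂⁻¹ := by
    rw [hb₂]; nth_rewrite 2 [← hA₂inv]; simp only [map_mul, map_inv, hA₂, hL₀]
  have hτb₃ : τ b₃ = (a₁ * a₂) * q₀ * (a₁ * a₂)⁻¹ := by
    have e : b₃ = A₁ * A₂ * L₀ * (A₁ * A₂)⁻¹ := by
      rw [hb₃, mul_inv_rev, hA₁inv, hA₂inv]
    rw [e]; simp only [map_mul, map_inv, hA₁, hA₂, hL₀]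
  have hb₀Q : τ L₀ ∈ Q := by rw [hL₀]; exact hq₀
  have hb₁Q : τ b₁ ∈ Q := by rw [hτb₁]; exact hN₁ _ hq₀
  have hb₂Q : τ b₂ ∈ Q := by rw [hτb₂]; exact hN₂ _ hq₀
  have hb₃Q : τ b₃ ∈ Q := by
    rw [hτb₃]
    have e : (a₁ * a₂) * q₀ * (a₁ * a₂)⁻¹ = a₁ * (a₂ * q₀ * a₂⁻¹) * a₁⁻¹ := by group
    rw [e]; exact hN₁ _ (hN₂ _ hq₀)
  obtain ⟨P₁, hP₁⟩ : ∃ P : Subgroup Γ, P = Subgroup.closure {L₀, b₁, b₂, b₃, s} := ⟨_, rfl⟩
  have hgenP : ∀ b ∈ ({L₀, b₁, b₂, b₃, s} : Set Γ), b ∈ P₁ := by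
    intro b hb; rw [hP₁]; exact Subgroup.subset_closure hb
  have hsP : s ∈ P₁ := hgenP s (by simp)
  have hPQ : ∀ p ∈ P₁, τ p ∈ Q := by
    have h : P₁ ≤ Q.comap τ := by
      rw [hP₁, Subgroup.closure_le]
      rintro b (rfl | rfl | rfl | rfl | rfl)
      · exact hb₀Q
      · exact hb₁Q
      · exact hb₂Q
      · exact hb₃Q
      · exact hsQ
    exact fun p hp => h hp
  -- (5) |P₁| ≤ 32
  have hstep : ∀ (H : Subgroup Γ), Finite H → s ∈ H → H ≤ Q.comap τ → ∀ x : Γ, τ x ∈ Q →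
      ∃ K : Subgroup Γ, H ≤ K ∧ x ∈ K ∧ Finite K ∧ Nat.card K ≤ 2 * Nat.card H ∧
        K ≤ Q.comap τ := by
    intro H hHf hsH hHQ x hx
    have := hHf
    obtain ⟨K, hHK, hxK, hKf, hKc, hKd⟩ := Cfsg.Agent.Lib.Helper44.J3MultA.ext2 H x (by
      intro h hh
      have hhQ : τ h ∈ Q := hHQ hh
      have e : x * h * x⁻¹ = ⁅x, h⁆ * h := by rw [commutatorElement_def]; group
      rw [e]
      rcases h3c x h hx hhQ with hc1 | hc1 <;> rw [hc1]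
      · rw [one_mul]; exact hh
      · exact H.mul_mem hsH hh) (by
      rcases h2' x hx with h | h <;> rw [h]
      · exact H.one_mem
      · exact hsH)
    refine ⟨K, hHK, hxK, hKf, hKc, ?_⟩
    intro y hy
    rcases hKd y hy with h | h
    · exact hHQ h
    · have h' : τ (x⁻¹ * y) ∈ Q := hHQ h
      have e : τ y = τ x * τ (x⁻¹ * y) := by rw [← map_mul]; congr 1; group
      show τ y ∈ Q
      rw [e]; exact Q.mul_mem hx h'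
  obtain ⟨K₀, -, hsK₀, hK₀f, hK₀c, hK₀d⟩ := Cfsg.Agent.Lib.Helper44.J3MultA.ext2 (⊥ : Subgroup Γ) s (by
      intro h hh
      rw [Subgroup.mem_bot] at hh ⊢
      rw [hh]; group) (by rw [hss]; exact Subgroup.one_mem _)
  have hK₀Q : K₀ ≤ Q.comap τ := by
    intro y hy
    show τ y ∈ Q
    rcases hK₀d y hy with h | h
    · rw [Subgroup.mem_bot] at h; rw [h, map_one]; exact Q.one_mem
    · rw [Subgroup.mem_bot] at h
      have e : y = s := by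
        calc y = s * (s⁻¹ * y) := by group
          _ = s := by rw [h, mul_one]
      rw [e]; exact hsQ
  have hK₀c' : Nat.card K₀ ≤ 2 := by simpa using hK₀c
  obtain ⟨K₁, hK₀₁, hb₃K, hK₁f, hK₁c, hK₁Q⟩ := hstep K₀ hK₀f hsK₀ hK₀Q b₃ hb₃Q
  obtain ⟨K₂, hK₁₂, hb₂K, hK₂f, hK₂c, hK₂Q⟩ := hstep K₁ hK₁f (hK₀₁ hsK₀) hK₁Q b₂ hb₂Q
  obtain ⟨K₃, hK₂₃, hb₁K, hK₃f, hK₃c, hK₃Q⟩ :=
    hstep K₂ hK₂f (hK₁₂ (hK₀₁ hsK₀)) hK₂Q b₁ hb₁Q
  obtain ⟨K₄, hK₃₄, hb₀K, hK₄f, hK₄c, hK₄Q⟩ :=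
    hstep K₃ hK₃f (hK₂₃ (hK₁₂ (hK₀₁ hsK₀))) hK₃Q L₀ hb₀Q
  have hP₁K : P₁ ≤ K₄ := by
    rw [hP₁, Subgroup.closure_le]
    rintro b (rfl | rfl | rfl | rfl | rfl)
    · exact hb₀K
    · exact hK₃₄ hb₁K
    · exact hK₃₄ (hK₂₃ hb₂K)
    · exact hK₃₄ (hK₂₃ (hK₁₂ hb₃K))
    · exact hK₃₄ (hK₂₃ (hK₁₂ (hK₀₁ hsK₀)))
  have := hK₄f
  have hP₁fin : Finite P₁ := Finite.of_injective (Subgroup.inclusion hP₁K)
    (Subgroup.inclusion_injective hP₁K)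
  have hP₁card : Nat.card P₁ ≤ 32 := by
    have h := Subgroup.card_le_of_le hP₁K
    omega
  have hmap : P₁.map τ = Q := by
    rw [hP₁, MonoidHom.map_closure, hgen]
    congr 1
    simp only [Set.image_insert_eq, Set.image_singleton, hL₀, hτb₁, hτb₂, hτb₃, hτs]
  have hlift : ∀ γ : Γ, τ γ ∈ Q → ∃ p ∈ P₁, τ p = τ γ := by
    intro γ hγ
    rw [← hmap] at hγ
    obtain ⟨p, hp, hpe⟩ := Subgroup.mem_map.mp hγ
    exact ⟨p, hp, hpe⟩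
  have hQfin : Finite Q := Nat.finite_of_card_ne_zero (by rw [hQcard]; norm_num)
  have hinj : ∀ p ∈ P₁, τ p = 1 → p = 1 := by
    let f : P₁ → Q := fun p => ⟨τ p.1, hPQ p.1 p.2⟩
    have hf : Function.Surjective f := by
      rintro ⟨q, hq⟩
      obtain ⟨γ, hγ⟩ := hs q
      obtain ⟨p, hp, hpe⟩ := hlift γ (by rw [hγ]; exact hq)
      exact ⟨⟨p, hp⟩, Subtype.ext (by show τ p = q; rw [hpe, hγ])⟩
    have hfb : Function.Bijective f :=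
      hf.bijective_of_nat_card_le (by rw [hQcard]; exact hP₁card)
    intro p hp hp1
    have e : f ⟨p, hp⟩ = f ⟨1, P₁.one_mem⟩ := Subtype.ext (by show τ p = τ 1; rw [hp1, map_one])
    have := hfb.1 e
    exact congrArg Subtype.val this
  -- (6) normalisation and commutators
  have hnormQ : ∀ γ : Γ, τ γ ∈ Q → ∀ p ∈ P₁, γ * p * γ⁻¹ ∈ P₁ := by
    intro γ hγ p hp
    have e : γ * p * γ⁻¹ = ⁅γ, p⁆ * p := by rw [commutatorElement_def]; group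
    rw [e]
    rcases h3c γ p hγ (hPQ p hp) with hc1 | hc1 <;> rw [hc1]
    · rw [one_mul]; exact hp
    · exact P₁.mul_mem hsP hp
  have hnormA : ∀ A : Γ, (∀ b ∈ ({L₀, b₁, b₂, b₃, s} : Set Γ), A * b * A⁻¹ ∈ P₁) →
      ∀ p ∈ P₁, A * p * A⁻¹ ∈ P₁ := by
    intro A hA p hp
    rw [hP₁] at hp
    induction hp using Subgroup.closure_induction with
    | mem b hb => exact hA b hb
    | one => simp
    | mul x y _ _ ihx ihy =>
      have e : A * (x * y) * A⁻¹ = (A * x * A⁻¹) * (A * y * A⁻¹) := by group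
      rw [e]; exact P₁.mul_mem ihx ihy
    | inv x _ ih =>
      have e : A * x⁻¹ * A⁻¹ = (A * x * A⁻¹)⁻¹ := by group
      rw [e]; exact P₁.inv_mem ih
  have h11 : ∀ x : Γ, A₁ * (A₁ * x) = x := fun x => by rw [← mul_assoc, hA₁2, one_mul]
  have h22 : ∀ x : Γ, A₂ * (A₂ * x) = x := fun x => by rw [← mul_assoc, hA₂2, one_mul]
  have h21 : A₂ * A₁ = A₁ * A₂ := hA12.symm
  have h21' : ∀ x : Γ, A₂ * (A₁ * x) = A₁ * (A₂ * x) := fun x => by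
    rw [← mul_assoc, h21, mul_assoc]
  have hnA₁ : ∀ p ∈ P₁, A₁ * p * A₁⁻¹ ∈ P₁ := by
    apply hnormA
    rintro b (rfl | rfl | rfl | rfl | rfl)
    · have e : A₁ * b * A₁⁻¹ = b₁ := by rw [hb₁, hA₁inv]
      rw [e]; exact hgenP _ (by simp)
    · have e : A₁ * b * A₁⁻¹ = L₀ := by
        rw [hb₁, hA₁inv]; simp only [mul_assoc, h11, hA₁2, mul_one]
      rw [e]; exact hgenP _ (by simp)
    · have e : A₁ * b * A₁⁻¹ = b₃ := by
        rw [hb₂, hb₃, hA₁inv]; simp only [mul_assoc]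
      rw [e]; exact hgenP _ (by simp)
    · have e : A₁ * b * A₁⁻¹ = b₂ := by
        rw [hb₂, hb₃, hA₁inv]; simp only [mul_assoc, h11, hA₁2, mul_one]
      rw [e]; exact hgenP _ (by simp)
    · have e : A₁ * b * A₁⁻¹ = b := by
        rw [hA₁s, mul_assoc, hA₁inv, hA₁2, mul_one]
      rw [e]; exact hsP
  have hnA₂ : ∀ p ∈ P₁, A₂ * p * A₂⁻¹ ∈ P₁ := by
    apply hnormA
    rintro b (rfl | rfl | rfl | rfl | rfl)
    · have e : A₂ * b * A₂⁻¹ = b₂ := by rw [hb₂, hA₂inv]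
      rw [e]; exact hgenP _ (by simp)
    · have e : A₂ * b * A₂⁻¹ = b₃ := by
        rw [hb₁, hb₃, hA₂inv]; simp only [mul_assoc, h21, h21']
      rw [e]; exact hgenP _ (by simp)
    · have e : A₂ * b * A₂⁻¹ = L₀ := by
        rw [hb₂, hA₂inv]; simp only [mul_assoc, h22, hA₂2, mul_one]
      rw [e]; exact hgenP _ (by simp)
    · have e : A₂ * b * A₂⁻¹ = b₁ := by
        rw [hb₁, hb₃, hA₂inv]; simp only [mul_assoc, h21, h21', h22, hA₂2, mul_one]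
      rw [e]; exact hgenP _ (by simp)
    · have e : A₂ * b * A₂⁻¹ = b := by
        rw [hA₂s, mul_assoc, hA₂inv, hA₂2, mul_one]
      rw [e]; exact hsP
  have hcommA : ∀ A : Γ, (∀ p ∈ P₁, A * p * A⁻¹ ∈ P₁) → ∀ γ : Γ, τ γ ∈ Q → ⁅A, γ⁆ ∈ P₁ := by
    intro A hA γ hγ
    obtain ⟨p, hp, hpe⟩ := hlift γ hγ
    obtain ⟨ζ, hζ⟩ : ∃ ζ : Γ, ζ = p⁻¹ * γ := ⟨_, rfl⟩
    have hζk : τ ζ = 1 := by rw [hζ, map_mul, map_inv, hpe]; group
    have hζc := hker ζ hζk A⁻¹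
    have e : γ = p * ζ := by rw [hζ]; group
    have e2 : ⁅A, γ⁆ = (A * p * A⁻¹) * p⁻¹ := by
      rw [e, commutatorElement_def]
      calc A * (p * ζ) * A⁻¹ * (p * ζ)⁻¹ = A * p * (ζ * A⁻¹) * ζ⁻¹ * p⁻¹ := by group
        _ = A * p * (A⁻¹ * ζ) * ζ⁻¹ * p⁻¹ := by rw [hζc]
        _ = (A * p * A⁻¹) * p⁻¹ := by group
    rw [e2]; exact P₁.mul_mem (hA p hp) (P₁.inv_mem hp)
  have hswap : ∀ x y : Γ, ⁅x, y⁆ ∈ P₁ → ⁅y, x⁆ ∈ P₁ := by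
    intro x y h
    rw [← commutatorElement_inv]; exact P₁.inv_mem h
  have hS : ⁅Subgroup.closure ({γ : Γ | τ γ ∈ Q} ∪ {A₁, A₂}),
      Subgroup.closure ({γ : Γ | τ γ ∈ Q} ∪ {A₁, A₂})⁆ ≤ P₁ := by
    apply Cfsg.Agent.Lib.Helper44.J3MultA.comm_le_of_gens
    · rintro x (hx | rfl | rfl) n hn
      · refine ⟨hnormQ x hx n hn, ?_⟩
        have h := hnormQ x⁻¹ (by rw [map_inv]; exact Q.inv_mem hx) n hn
        rwa [inv_inv] at h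
      · refine ⟨hnA₁ n hn, ?_⟩
        have h := hnA₁ n hn
        rw [hA₁inv] at h ⊢
        exact h
      · refine ⟨hnA₂ n hn, ?_⟩
        have h := hnA₂ n hn
        rw [hA₂inv] at h ⊢
        exact h
    · rintro x (hx | rfl | rfl) y (hy | rfl | rfl)
      · rcases h3c x y hx hy with h | h <;> rw [h]
        · exact P₁.one_mem
        · exact hsP
      · exact hswap _ _ (hcommA _ hnA₁ x hx)
      · exact hswap _ _ (hcommA _ hnA₂ x hx)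
      · exact hcommA _ hnA₁ y hy
      · rw [commutatorElement_self]; exact P₁.one_mem
      · rw [commutatorElement_eq_one_iff_mul_comm.mpr hA12]; exact P₁.one_mem
      · exact hcommA _ hnA₂ y hy
      · rw [commutatorElement_eq_one_iff_mul_comm.mpr hA12.symm]; exact P₁.one_mem
      · rw [commutatorElement_self]; exact P₁.one_mem
  have hcov : (Q ⊔ Subgroup.closure {a₁, a₂}).comap τ ≤
      Subgroup.closure ({γ : Γ | τ γ ∈ Q} ∪ {A₁, A₂}) := by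
    have h : Q ⊔ Subgroup.closure {a₁, a₂} ≤
        (Subgroup.closure ({γ : Γ | τ γ ∈ Q} ∪ {A₁, A₂})).map τ := by
      apply sup_le
      · intro q hq
        obtain ⟨γ, hγ⟩ := hs q
        exact Subgroup.mem_map.mpr ⟨γ, Subgroup.subset_closure (Or.inl (by
          show τ γ ∈ Q
          rw [hγ]; exact hq)), hγ⟩
      · rw [Subgroup.closure_le]
        rintro a (rfl | rfl)
        · exact Subgroup.mem_map.mpr ⟨A₁, Subgroup.subset_closure (Or.inr (by simp)), hA₁⟩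
        · exact Subgroup.mem_map.mpr ⟨A₂, Subgroup.subset_closure (Or.inr (by simp)), hA₂⟩
    intro γ hγ
    obtain ⟨δ, hδ, hδe⟩ := Subgroup.mem_map.mp (h hγ)
    have e : γ = δ * (δ⁻¹ * γ) := by group
    rw [e]
    refine Subgroup.mul_mem _ hδ (Subgroup.subset_closure (Or.inl ?_))
    show τ (δ⁻¹ * γ) ∈ Q
    rw [map_mul, map_inv, hδe, inv_mul_cancel]; exact Q.one_mem
  rw [eq_bot_iff]
  rintro x ⟨hx1, hx2⟩
  rw [Subgroup.mem_bot]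
  exact hinj x (hS (Subgroup.commutator_mono hcov hcov hx1)) (MonoidHom.mem_ker.mp hx2)

end Cfsg.Agent.Lib.Helper63.J2MultA2
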