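import Mathlib
import Cfsg.Agent.Lib.Lead.BrHalfStmt
import Cfsg.Agent.Lib.CT.Wedderburn

/-! S4504 part C, piece `AIrr`: the class sum of the elements of order `p` on an irreducible
character (from `CS`, `CountP`, `SumP`). -/

set_option autoImplicit false

namespace Cfsg.Agent.Lib.Helper63.BrCAIrr

open Cfsg Cfsg.Agent.Lib.Lead.BrHalf
open scoped ComplexConjugate Classical

universe u

theorem main (hCS : CS.{u}) (hCountP : CountP.{u}) (hSumP : SumP.{u}) : AIrr.{u} := by
  intro L _ _ p _ c θ hθ g
  have hcl : IsClassFunction L θ :=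
    Cfsg.Agent.Lib.CT.Wedderburn.char_isClassFunction
      (Cfsg.Agent.Lib.CT.Wedderburn.isCharacter_of_irr hθ)
  have hwcl : IsClassFunction L (fun u : L => if orderOf u = p then (1 : ℂ) else 0) := by
    intro u h
    have h1 : orderOf (h * u * h⁻¹) = orderOf u :=
      orderOf_injective (MulAut.conj h).toMonoidHom (MulAut.conj h).injective u
    simp only [h1]
  have h1 := hCS θ hθ (fun u : L => if orderOf u = p then (1 : ℂ) else 0) hwcl g
  have h2 := hCountP p c θ hcl
  have h3 := hSumP p c θ
  have e1 : ∑ u : L, (if orderOf u = p then (1 : ℂ) else 0) * θ (g * u) =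
      ∑ u : L, if orderOf u = p then θ (g * u) else 0 := by
    apply Finset.sum_congr rfl
    intro u _
    split_ifs <;> simp
  have e2 : ∑ u : L, (if orderOf u = p then (1 : ℂ) else 0) * θ u =
      ∑ u : L, if orderOf u = p then θ u else 0 := by
    apply Finset.sum_congr rfl
    intro u _
    split_ifs <;> simp
  rw [e1, e2, h2] at h1
  rw [h1, h3]
  have hp : 0 < p := Nat.Prime.pos Fact.out
  have e3 : ∑ a ∈ Finset.range p, θ (c.x ^ a) = θ 1 + ∑ a ∈ Finset.Ico 1 p, θ (c.x ^ a) := by
    rw [Finset.range_eq_Ico, Finset.sum_eq_sum_Ico_succ_bot hp]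
    simp
  rw [e3]
  ring

end Cfsg.Agent.Lib.Helper63.BrCAIrr
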