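import Mathlib
import Cfsg.Agent.Lib.Lead.BrHalfStmt
import Cfsg.Agent.Lib.CT.Wedderburn

/-! S4504 part C, piece `DSq`: `D = ξ - ξ^σ` has `|D|² = p` on the `p`-singular elements and
vanishes on the `p`-regular ones (from `CentP`, `SingForm`, `XiCent`, `PerDiff`). -/

set_option autoImplicit false

namespace Cfsg.Agent.Lib.Helper63.BrCDSq

open Cfsg Cfsg.Agent.Lib.Lead.BrHalf
open scoped ComplexConjugate Classical

universe u

theorem main (hCentP : CentP.{u}) (hSing : SingForm.{u}) (hXi : XiCent.{u}) (hPerDiff : PerDiff) :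
    DSq.{u} := by
  intro L _ _ p _ c k hk g
  obtain ⟨-, hknsq, hkreg⟩ := hk
  by_cases hg : p ∣ orderOf g
  · rw [if_pos hg]
    obtain ⟨h, a, hpa, z, hz, rfl⟩ := hSing p c g hg
    obtain ⟨hξ1, hz'⟩ := hXi p c
    obtain ⟨hnorm, hmul⟩ := hz' z hz
    have hzk : z ^ k = z := hkreg z (hCentP p c z hz)
    have hcl : IsClassFunction L c.ξ :=
      Cfsg.Agent.Lib.CT.Wedderburn.char_isClassFunction
        (Cfsg.Agent.Lib.CT.Wedderburn.isCharacter_of_irr c.hξ)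
    have hv1 : c.ξ (h * c.x ^ a * h⁻¹ * z) = per p c.ζ a * (c.ξ z / c.ξ 1) := by
      rw [hmul, hcl, c.hres]
    have hpow : (h * c.x ^ a * h⁻¹ * z) ^ k = h * c.x ^ (a * k) * h⁻¹ * z := by
      have hcomm : Commute (h * c.x ^ a * h⁻¹) z := Subgroup.mem_center_iff.1 hz _
      rw [hcomm.mul_pow, hzk, conj_pow, ← pow_mul]
    have hv2 : c.ξ ((h * c.x ^ a * h⁻¹ * z) ^ k) = per p c.ζ (a * k) * (c.ξ z / c.ξ 1) := by
      rw [hpow, hmul, hcl, c.hres]
    have hp2 : p ≠ 2 := by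
      have := c.hp5
      omega
    have hPD := hPerDiff p hp2 c.ζ c.hζ a k hpa hknsq
    have he0 : (c.e : ℝ) ≠ 0 := by
      have h1 := c.hdeg
      have h2 := c.hp5
      have h3 : c.e ≠ 0 := by
        unfold Ctx.e
        omega
      exact_mod_cast h3
    have hω : (c.ξ z / c.ξ 1) * conj (c.ξ z / c.ξ 1) = 1 := by
      rw [Complex.mul_conj, Complex.normSq_eq_norm_sq, norm_div, hnorm, hξ1, Complex.norm_natCast,
        div_self he0]
      simp
    show (c.ξ (h * c.x ^ a * h⁻¹ * z) - c.ξ ((h * c.x ^ a * h⁻¹ * z) ^ k)) *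
      conj (c.ξ (h * c.x ^ a * h⁻¹ * z) - c.ξ ((h * c.x ^ a * h⁻¹ * z) ^ k)) = (p : ℂ)
    rw [hv1, hv2]
    calc (per p c.ζ a * (c.ξ z / c.ξ 1) - per p c.ζ (a * k) * (c.ξ z / c.ξ 1)) *
          conj (per p c.ζ a * (c.ξ z / c.ξ 1) - per p c.ζ (a * k) * (c.ξ z / c.ξ 1))
        = ((per p c.ζ a - per p c.ζ (a * k)) * conj (per p c.ζ a - per p c.ζ (a * k))) *
            ((c.ξ z / c.ξ 1) * conj (c.ξ z / c.ξ 1)) := by
          simp only [map_sub, map_mul]
          ring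
      _ = (p : ℂ) := by rw [hPD, hω, mul_one]
  · rw [if_neg hg]
    have h1 : g ^ k = g := hkreg g hg
    show (c.ξ g - c.ξ (g ^ k)) * conj (c.ξ g - c.ξ (g ^ k)) = 0
    rw [h1, sub_self, zero_mul]

end Cfsg.Agent.Lib.Helper63.BrCDSq
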