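import Mathlib

/-!
# Complements modulo a subgroup containing all squares

If every element of a subgroup `Q` of a finite group has its square in `Γ₀ ≤ Q`, then for every
subgroup `C` there is a subgroup `Γ` between `Γ₀` and `Q` meeting `C` inside `Γ₀` and with
`Q ⊆ C Γ`.  (This is the existence of complements in an elementary abelian 2-group, stated
without forming the quotient; it is used to build graphs of isomorphisms between central
extensions with the same squaring map.)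
-/

set_option autoImplicit false

namespace Cfsg.Agent.Lib.Helper63.GraphExt

theorem exists_graph {G : Type*} [Group G] [Finite G] (Γ₀ Q C : Subgroup G) (h0 : Γ₀ ≤ Q)
    (hsq : ∀ t ∈ Q, t * t ∈ Γ₀) :
    ∃ Γ : Subgroup G, Γ₀ ≤ Γ ∧ Γ ≤ Q ∧ Γ ⊓ C ≤ Γ₀ ∧ ∀ t ∈ Q, ∃ c ∈ C, ∃ h ∈ Γ, t = c * h := by
  classical
  obtain ⟨Γ, -, hmax⟩ := Finite.exists_le_maximal
    (p := fun Γ : Subgroup G => Γ₀ ≤ Γ ∧ Γ ≤ Q ∧ Γ ⊓ C ≤ Γ₀) (a := Γ₀) ⟨le_rfl, h0, inf_le_left⟩
  obtain ⟨h1, h2, h3⟩ := hmax.prop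
  refine ⟨Γ, h1, h2, h3, ?_⟩
  intro t ht
  by_contra hcon
  push Not at hcon
  have htt : t * t ∈ Γ := h1 (hsq t ht)
  have hconj : ∀ h ∈ Γ, t * h * t⁻¹ ∈ Γ := by
    intro h hh
    have e : t * h * t⁻¹ = (t * h) * (t * h) * h⁻¹ * (t * t)⁻¹ := by group
    rw [e]
    exact Γ.mul_mem (Γ.mul_mem (h1 (hsq _ (Q.mul_mem ht (h2 hh)))) (Γ.inv_mem hh)) (Γ.inv_mem htt)
  have hconj' : ∀ h ∈ Γ, t⁻¹ * h * t ∈ Γ := by
    intro h hh
    have e : t⁻¹ * h * t = (t * t)⁻¹ * (t * h * t⁻¹) * (t * t) := by group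
    rw [e]
    exact Γ.mul_mem (Γ.mul_mem (Γ.inv_mem htt) (hconj h hh)) htt
  let Γ' : Subgroup G :=
    { carrier := {g | g ∈ Γ ∨ g * t ∈ Γ}
      one_mem' := Or.inl Γ.one_mem
      mul_mem' := by
        rintro a b (ha | ha) (hb | hb)
        · exact Or.inl (Γ.mul_mem ha hb)
        · right
          rw [mul_assoc]
          exact Γ.mul_mem ha hb
        · right
          have e : a * b * t = (a * t) * (t⁻¹ * b * t) := by group
          rw [e]
          exact Γ.mul_mem ha (hconj' b hb)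
        · left
          have e : a * b = (a * t) * (t⁻¹ * (b * t) * t) * (t * t)⁻¹ := by group
          rw [e]
          exact Γ.mul_mem (Γ.mul_mem ha (hconj' _ hb)) (Γ.inv_mem htt)
      inv_mem' := by
        rintro a (ha | ha)
        · exact Or.inl (Γ.inv_mem ha)
        · right
          have e : a⁻¹ * t = t * (a * t)⁻¹ * t⁻¹ * (t * t) := by group
          rw [e]
          exact Γ.mul_mem (hconj _ (Γ.inv_mem ha)) htt }
  have hmem' : ∀ g, g ∈ Γ' ↔ (g ∈ Γ ∨ g * t ∈ Γ) := fun g => Iff.rfl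
  have hle : Γ ≤ Γ' := fun g hg => Or.inl hg
  have htinv : t⁻¹ ∈ Γ' := Or.inr (by rw [inv_mul_cancel]; exact Γ.one_mem)
  have htnot : t⁻¹ ∉ Γ := by
    intro h
    refine hcon 1 C.one_mem t ?_ (one_mul t).symm
    have := Γ.inv_mem h
    rwa [inv_inv] at this
  have hP : Γ₀ ≤ Γ' ∧ Γ' ≤ Q ∧ Γ' ⊓ C ≤ Γ₀ := by
    refine ⟨h1.trans hle, ?_, ?_⟩
    · intro g hg
      rcases (hmem' g).1 hg with hg | hg
      · exact h2 hg
      · have e : g = (g * t) * t⁻¹ := by group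
        rw [e]
        exact Q.mul_mem (h2 hg) (Q.inv_mem ht)
    · intro g hg
      obtain ⟨hg1, hg2⟩ := Subgroup.mem_inf.1 hg
      rcases (hmem' g).1 hg1 with hg1 | hg1
      · exact h3 (Subgroup.mem_inf.2 ⟨hg1, hg2⟩)
      · exact absurd (show t = g⁻¹ * (g * t) by group) (hcon g⁻¹ (C.inv_mem hg2) (g * t) hg1)
  exact htnot (hmax.le_of_ge hP hle htinv)

end Cfsg.Agent.Lib.Helper63.GraphExt
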