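import Mathlib
import Cfsg.Agent.Lib.Helper63.GraphExt

/-!
# A Chevalley–Warning type bound for quadratic maps into elementary abelian 2-groups

Let `V` be a finite group, `W` a finite group of exponent two and `q : V → W` a map with
`q (x * y) = q x * q y * β x y` for a map `β` that is multiplicative in its first argument.
Then for every subgroup `T` of `W` met by `q`,
`|V| * |T|² ≤ |{x | q x ∈ T}| * |W|²` (`cw2`), and if `β` takes its values in `T`,
`|V| * |T| ≤ |{x | q x ∈ T}| * |W|` (`cw1`).

The proof is by finite differences of functions `V → ZMod 2`: `Deg n f` says that all `n`-fold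
differences of `f` vanish.  A nonzero function with `Deg (d + 1)` has support of size at least
`|V| / 2 ^ d` (`card_le_of_deg`), and the indicator function of `{x | q x ∈ T}` is a product of
indicator functions for subgroups of index two, which have `Deg 3` (respectively `Deg 2`).
-/

set_option autoImplicit false

namespace Cfsg.Agent.Lib.Helper63.CW2

section Deg

variable {V : Type*} [Group V]

/-- The difference operator on functions `V → ZMod 2`. -/
def diff (h : V) (f : V → ZMod 2) : V → ZMod 2 := fun x => f (x * h) + f x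

/-- `Deg n f`: all `n`-fold iterated differences of `f` vanish. -/
def Deg : ℕ → (V → ZMod 2) → Prop
  | 0, f => f = 0
  | n + 1, f => ∀ h : V, Deg n (diff h f)

theorem deg_zero_iff (f : V → ZMod 2) : Deg 0 f ↔ f = 0 := Iff.rfl

theorem deg_succ_iff (n : ℕ) (f : V → ZMod 2) : Deg (n + 1) f ↔ ∀ h : V, Deg n (diff h f) :=
  Iff.rfl

theorem diff_zero (h : V) : diff h (0 : V → ZMod 2) = 0 := by
  funext x
  simp [diff]

theorem deg_zero (n : ℕ) : Deg n (0 : V → ZMod 2) := by
  induction n with
  | zero => rfl
  | succ n ih =>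
    intro h
    rw [diff_zero]
    exact ih

theorem deg_succ {n : ℕ} {f : V → ZMod 2} (hf : Deg n f) : Deg (n + 1) f := by
  induction n generalizing f with
  | zero =>
    intro h
    have hf' : f = 0 := hf
    rw [hf', diff_zero]
    rfl
  | succ n ih =>
    intro h
    exact ih (hf h)

theorem deg_mono {n m : ℕ} (hnm : n ≤ m) {f : V → ZMod 2} (hf : Deg n f) : Deg m f := by
  induction hnm with
  | refl => exact hf
  | step _ ih => exact deg_succ ih

theorem diff_add (h : V) (f g : V → ZMod 2) : diff h (f + g) = diff h f + diff h g := by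
  funext x
  simp only [diff, Pi.add_apply]
  ring

theorem deg_add {n : ℕ} {f g : V → ZMod 2} (hf : Deg n f) (hg : Deg n g) : Deg n (f + g) := by
  induction n generalizing f g with
  | zero =>
    have hf' : f = 0 := hf
    have hg' : g = 0 := hg
    show f + g = 0
    rw [hf', hg', add_zero]
  | succ n ih =>
    intro h
    rw [diff_add]
    exact ih (hf h) (hg h)

theorem deg_translate {n : ℕ} {f : V → ZMod 2} (a : V) (hf : Deg n f) :
    Deg n (fun x => f (x * a)) := by
  induction n generalizing f with
  | zero =>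
    have hf' : f = 0 := hf
    show (fun x => f (x * a)) = 0
    rw [hf']
    rfl
  | succ n ih =>
    intro h
    have e : diff h (fun x => f (x * a)) = fun x => diff (a⁻¹ * h * a) f (x * a) := by
      funext x
      simp only [diff]
      have e' : x * a * (a⁻¹ * h * a) = x * h * a := by group
      rw [e']
    rw [e]
    exact ih (hf _)

theorem diff_mul (h : V) (f g : V → ZMod 2) :
    diff h (f * g) = diff h f * (fun x => g (x * h)) + f * diff h g := by
  funext x
  simp only [diff, Pi.mul_apply, Pi.add_apply]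
  have key : ∀ a b c d : ZMod 2, a * b + c * d = (a + c) * b + c * (b + d) := by decide
  exact key _ _ _ _

theorem deg_mul_aux (s : ℕ) : ∀ (a b : ℕ) (f g : V → ZMod 2), a + b = s → Deg a f → Deg b g →
    Deg (a + b - 1) (f * g) := by
  induction s with
  | zero =>
    intro a b f g hab hf hg
    have ha : a = 0 := by omega
    subst ha
    have hf' : f = 0 := hf
    rw [hf', zero_mul]
    exact deg_zero _
  | succ s ih =>
    intro a b f g hab hf hg
    rcases a with _ | a
    · have hf' : f = 0 := hf
      rw [hf', zero_mul]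
      exact deg_zero _
    rcases b with _ | b
    · have hg' : g = 0 := hg
      rw [hg', mul_zero]
      exact deg_zero _
    have e : a + 1 + (b + 1) - 1 = (a + b) + 1 := by omega
    rw [e]
    intro h
    rw [diff_mul]
    apply deg_add
    · have h1 := ih a (b + 1) (diff h f) (fun x => g (x * h)) (by omega) (hf h)
        (deg_translate h hg)
      have e2 : a + (b + 1) - 1 = a + b := by omega
      rwa [e2] at h1
    · have h1 := ih (a + 1) b f (diff h g) (by omega) hf (hg h)
      have e2 : a + 1 + b - 1 = a + b := by omega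
      rwa [e2] at h1

theorem deg_mul {a b : ℕ} {f g : V → ZMod 2} (hf : Deg a f) (hg : Deg b g) :
    Deg (a + b - 1) (f * g) := deg_mul_aux (a + b) a b f g rfl hf hg

theorem const_of_diff {f : V → ZMod 2} (hf : ∀ h : V, diff h f = 0) (x y : V) : f x = f y := by
  have h := congrFun (hf (x⁻¹ * y)) x
  simp only [diff, Pi.zero_apply, mul_inv_cancel_left] at h
  have key : ∀ a b : ZMod 2, a + b = 0 → b = a := by decide
  exact key _ _ h

/-- A nonzero function all of whose `(d + 1)`-fold differences vanish has large support. -/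
theorem card_le_of_deg [Finite V] (d : ℕ) : ∀ (f : V → ZMod 2), Deg (d + 1) f → f ≠ 0 →
    Nat.card V ≤ {x : V | f x ≠ 0}.ncard * 2 ^ d := by
  have hconst : ∀ f : V → ZMod 2, (∀ h : V, diff h f = 0) → f ≠ 0 →
      Nat.card V ≤ {x : V | f x ≠ 0}.ncard := by
    intro f hf hne
    obtain ⟨x₀, hx₀⟩ : ∃ x, f x ≠ 0 := by
      by_contra hcon
      push Not at hcon
      exact hne (funext hcon)
    have hu : {x : V | f x ≠ 0} = Set.univ := by
      ext x
      simp only [Set.mem_ofPred_eq, Set.mem_univ, iff_true]
      rw [const_of_diff hf x x₀]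
      exact hx₀
    rw [hu, Set.ncard_univ]
  induction d with
  | zero =>
    intro f hf hne
    rw [pow_zero, mul_one]
    exact hconst f hf hne
  | succ d ih =>
    intro f hf hne
    by_cases hc : ∀ h : V, diff h f = 0
    · have h1 := hconst f hc hne
      calc Nat.card V ≤ {x : V | f x ≠ 0}.ncard := h1
        _ ≤ {x : V | f x ≠ 0}.ncard * 2 ^ (d + 1) := Nat.le_mul_of_pos_right _ (by positivity)
    · push Not at hc
      obtain ⟨h, hh⟩ := hc
      have h1 := ih (diff h f) (hf h) hh
      have hsub : {x : V | diff h f x ≠ 0} ⊆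
          {x : V | f x ≠ 0} ∪ (fun y => y * h⁻¹) '' {x : V | f x ≠ 0} := by
        intro x hx
        by_cases hfx : f x = 0
        · right
          refine ⟨x * h, ?_, by simp⟩
          simp only [Set.mem_ofPred_eq, diff, hfx, add_zero] at hx ⊢
          exact hx
        · left
          exact hfx
      have h2 : {x : V | diff h f x ≠ 0}.ncard ≤ 2 * {x : V | f x ≠ 0}.ncard := by
        calc {x : V | diff h f x ≠ 0}.ncard
            ≤ ({x : V | f x ≠ 0} ∪ (fun y => y * h⁻¹) '' {x : V | f x ≠ 0}).ncard :=
              Set.ncard_le_ncard hsub (Set.toFinite _)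
          _ ≤ {x : V | f x ≠ 0}.ncard + ((fun y => y * h⁻¹) '' {x : V | f x ≠ 0}).ncard :=
              Set.ncard_union_le _ _
          _ ≤ {x : V | f x ≠ 0}.ncard + {x : V | f x ≠ 0}.ncard :=
              Nat.add_le_add_left (Set.ncard_image_le (Set.toFinite _)) _
          _ = 2 * {x : V | f x ≠ 0}.ncard := by ring
      calc Nat.card V ≤ {x : V | diff h f x ≠ 0}.ncard * 2 ^ d := h1
        _ ≤ (2 * {x : V | f x ≠ 0}.ncard) * 2 ^ d := Nat.mul_le_mul_right _ h2
        _ = {x : V | f x ≠ 0}.ncard * 2 ^ (d + 1) := by ring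

end Deg

section Char

variable {W : Type*} [Group W]

theorem comm_of_sq (hW : ∀ w : W, w * w = 1) (a b : W) : a * b = b * a := by
  have ha : a⁻¹ = a := inv_eq_of_mul_eq_one_left (hW a)
  have hb : b⁻¹ = b := inv_eq_of_mul_eq_one_left (hW b)
  calc a * b = (a * b)⁻¹ := (inv_eq_of_mul_eq_one_left (hW (a * b))).symm
    _ = b⁻¹ * a⁻¹ := mul_inv_rev a b
    _ = b * a := by rw [ha, hb]

/-- In a finite group of exponent two, an element outside a subgroup `T` is separated from `T`
by a subgroup of index two. -/
theorem exists_index_two [Finite W] (hW : ∀ w : W, w * w = 1) (T : Subgroup W) (t : W)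
    (ht : t ∉ T) : ∃ K : Subgroup W, T ≤ K ∧ t ∉ K ∧ ∀ w : W, w ∉ K → w * t ∈ K := by
  let C : Subgroup W :=
    { carrier := {c | c = 1 ∨ c = t}
      one_mem' := Or.inl rfl
      mul_mem' := by
        intro a b ha hb
        rcases ha with ha | ha <;> rcases hb with hb | hb
        · left; rw [ha, hb, one_mul]
        · right; rw [ha, hb, one_mul]
        · right; rw [ha, hb, mul_one]
        · left; rw [ha, hb, hW]
      inv_mem' := by
        intro a ha
        rcases ha with ha | ha
        · left; rw [ha, inv_one]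
        · right; rw [ha]; exact inv_eq_of_mul_eq_one_left (hW t) }
  have hC : ∀ c, c ∈ C ↔ (c = 1 ∨ c = t) := fun c => Iff.rfl
  obtain ⟨Γ, h1, -, h3, h4⟩ := GraphExt.exists_graph T ⊤ C le_top
    (fun s _ => by rw [hW]; exact T.one_mem)
  refine ⟨Γ, h1, ?_, ?_⟩
  · intro htΓ
    exact ht (h3 (Subgroup.mem_inf.2 ⟨htΓ, (hC t).2 (Or.inr rfl)⟩))
  · intro w hw
    obtain ⟨c, hc, h, hh, hwch⟩ := h4 w (Subgroup.mem_top w)
    rcases (hC c).1 hc with hc1 | hct
    · rw [hc1, one_mul] at hwch
      rw [hwch] at hw
      exact absurd hh hw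
    · have e : w * t = h := by
        rw [hwch, hct, comm_of_sq hW t h, mul_assoc, hW, mul_one]
      rw [e]
      exact hh

theorem char_add (hW : ∀ w : W, w * w = 1) (K : Subgroup W) (t : W) (ht : t ∉ K)
    (hK : ∀ w : W, w ∉ K → w * t ∈ K) [DecidablePred (· ∈ K)] (a b : W) :
    (if a * b ∈ K then (0 : ZMod 2) else 1)
      = (if a ∈ K then 0 else 1) + (if b ∈ K then 0 else 1) := by
  by_cases ha : a ∈ K <;> by_cases hb : b ∈ K
  · rw [if_pos ha, if_pos hb, if_pos (K.mul_mem ha hb), add_zero]
  · have h1 : a * b ∉ K := fun h => hb (by simpa using K.mul_mem (K.inv_mem ha) h)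
    rw [if_pos ha, if_neg hb, if_neg h1, zero_add]
  · have h1 : a * b ∉ K := fun h => ha (by simpa using K.mul_mem h (K.inv_mem hb))
    rw [if_neg ha, if_pos hb, if_neg h1, add_zero]
  · have h1 : a * b ∈ K := by
      have h2 := K.mul_mem (hK a ha) (hK b hb)
      have e : a * t * (b * t) = a * b := by
        rw [mul_assoc, comm_of_sq hW b t, ← mul_assoc t, hW, one_mul]
      rwa [e] at h2
    rw [if_neg ha, if_neg hb, if_pos h1]
    decide

end Char

section Main

variable {V W : Type*} [Group V] [Group W]

open Classical in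
/-- The indicator function of `{x | q x ∈ M}`. -/
noncomputable def ind (q : V → W) (M : Subgroup W) : V → ZMod 2 :=
  fun x => if q x ∈ M then 1 else 0

omit [Group V] in
theorem ind_inf (q : V → W) (M K : Subgroup W) : ind q (M ⊓ K) = ind q M * ind q K := by
  classical
  funext x
  simp only [ind, Pi.mul_apply, Subgroup.mem_inf]
  by_cases h1 : q x ∈ M <;> by_cases h2 : q x ∈ K <;> simp [h1, h2]

theorem ind_top (q : V → W) : Deg 1 (ind q ⊤) := by
  intro h
  show diff h (ind q ⊤) = 0
  funext x
  simp only [diff, ind, Subgroup.mem_top, if_true, Pi.zero_apply]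
  decide

/-- The indicator function for a subgroup of index two has degree at most two, and at most one
when `β` takes its values in the subgroup. -/
theorem ind_index_two (hW : ∀ w : W, w * w = 1) (q : V → W) (β : V → V → W)
    (hq : ∀ x y, q (x * y) = q x * q y * β x y) (hβ : ∀ x y z, β (x * y) z = β x z * β y z)
    (K : Subgroup W) (t : W) (ht : t ∉ K) (hK : ∀ w : W, w ∉ K → w * t ∈ K) :
    Deg 3 (ind q K) ∧ ((∀ x y, β x y ∈ K) → Deg 2 (ind q K)) := by
  classical
  let c : W → ZMod 2 := fun w => if w ∈ K then 0 else 1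
  have hc : ∀ a b, c (a * b) = c a + c b := char_add hW K t ht hK
  let g : V → ZMod 2 := fun x => c (q x)
  have e : ind q K = (fun _ => 1) + g := by
    funext x
    show (if q x ∈ K then (1 : ZMod 2) else 0) = 1 + (if q x ∈ K then 0 else 1)
    by_cases h : q x ∈ K
    · rw [if_pos h, if_pos h, add_zero]
    · rw [if_neg h, if_neg h]
      decide
  have h1 : Deg 1 (fun _ : V => (1 : ZMod 2)) := by
    intro h
    show diff h _ = 0
    funext x
    simp only [diff, Pi.zero_apply]
    decide
  have e1 : ∀ h x, diff h g x = c (q h) + c (β x h) := by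
    intro h x
    show c (q (x * h)) + c (q x) = _
    rw [hq, hc, hc]
    have key : ∀ a b d : ZMod 2, a + b + d + a = b + d := by decide
    exact key _ _ _
  have e2 : ∀ h k x, diff k (diff h g) x = c (β k h) := by
    intro h k x
    show diff h g (x * k) + diff h g x = _
    rw [e1, e1, hβ, hc]
    have key : ∀ a b d : ZMod 2, a + (b + d) + (a + b) = d := by decide
    exact key _ _ _
  have h3 : ∀ h k l : V, diff l (diff k (diff h g)) = 0 := by
    intro h k l
    funext x
    show diff k (diff h g) (x * l) + diff k (diff h g) x = 0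
    rw [e2, e2]
    have key : ∀ a : ZMod 2, a + a = 0 := by decide
    exact key _
  have hg3 : Deg 3 g := fun h k l => h3 h k l
  refine ⟨?_, ?_⟩
  · rw [e]
    exact deg_add (deg_mono (by norm_num) h1) hg3
  · intro hβK
    have h2 : ∀ h k : V, diff k (diff h g) = 0 := by
      intro h k
      funext x
      rw [e2]
      show (if β k h ∈ K then (0 : ZMod 2) else 1) = 0
      rw [if_pos (hβK k h)]
    have hg2 : Deg 2 g := fun h k => h2 h k
    rw [e]
    exact deg_add (deg_mono (by norm_num) h1) hg2

theorem exists_deg [Finite W] (hW : ∀ w : W, w * w = 1) (q : V → W) (T : Subgroup W) (e : ℕ)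
    (hK : ∀ (K : Subgroup W) (t : W), T ≤ K → t ∉ K → (∀ w : W, w ∉ K → w * t ∈ K) →
      Deg (e + 1) (ind q K)) :
    ∃ k : ℕ, Deg (e * k + 1) (ind q T) ∧ 2 ^ k * Nat.card T ≤ Nat.card W := by
  have main : ∀ n : ℕ, ∀ M : Subgroup W, Nat.card M = n → T ≤ M → ∀ k : ℕ,
      Deg (e * k + 1) (ind q M) → 2 ^ k * Nat.card M ≤ Nat.card W →
      ∃ k : ℕ, Deg (e * k + 1) (ind q T) ∧ 2 ^ k * Nat.card T ≤ Nat.card W := by
    intro n
    induction n using Nat.strong_induction_on with
    | _ n ih =>
      intro M hMn hTM k hdeg hcard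
      by_cases hMT : M ≤ T
      · have hMeq : M = T := le_antisymm hMT hTM
        subst hMeq
        exact ⟨k, hdeg, hcard⟩
      · obtain ⟨t, htM, htT⟩ := SetLike.not_le_iff_exists.1 hMT
        obtain ⟨K, hTK, htK, hKt⟩ := exists_index_two hW T t htT
        have hlt : M ⊓ K < M := by
          refine lt_of_le_of_ne inf_le_left ?_
          intro h
          have h' : t ∈ M ⊓ K := by rw [h]; exact htM
          exact htK (Subgroup.mem_inf.1 h').2
        have hpos : 0 < Nat.card (M ⊓ K : Subgroup W) := Nat.card_pos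
        have hcard2 : 2 * Nat.card (M ⊓ K : Subgroup W) ≤ Nat.card M := by
          have hdvd : Nat.card (M ⊓ K : Subgroup W) ∣ Nat.card M :=
            Subgroup.card_dvd_of_le inf_le_left
          have hne : Nat.card (M ⊓ K : Subgroup W) ≠ Nat.card M := by
            intro h
            exact hlt.ne (Subgroup.eq_of_le_of_card_ge inf_le_left h.ge)
          obtain ⟨j, hj⟩ := hdvd
          have hposM : 0 < Nat.card M := Nat.card_pos
          have hj2 : 2 ≤ j := by
            by_contra hj2
            have hj01 : j = 0 ∨ j = 1 := by omega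
            rcases hj01 with hj0 | hj1
            · rw [hj0, mul_zero] at hj
              omega
            · rw [hj1, mul_one] at hj
              exact hne hj.symm
          calc 2 * Nat.card (M ⊓ K : Subgroup W) ≤ j * Nat.card (M ⊓ K : Subgroup W) :=
                Nat.mul_le_mul_right _ hj2
            _ = Nat.card M := by rw [hj, mul_comm]
        refine ih _ ?_ (M ⊓ K) rfl (le_inf hTM hTK) (k + 1) ?_ ?_
        · omega
        · rw [ind_inf]
          have h1 := deg_mul hdeg (hK K t hTK htK hKt)
          have e' : e * k + 1 + (e + 1) - 1 = e * (k + 1) + 1 := by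
            rw [Nat.mul_succ]
            omega
          rwa [e'] at h1
        · calc 2 ^ (k + 1) * Nat.card (M ⊓ K : Subgroup W)
              = 2 ^ k * (2 * Nat.card (M ⊓ K : Subgroup W)) := by ring
            _ ≤ 2 ^ k * Nat.card M := Nat.mul_le_mul_left _ hcard2
            _ ≤ Nat.card W := hcard
  refine main _ ⊤ rfl le_top 0 ?_ ?_
  · rw [Nat.mul_zero, Nat.zero_add]
    exact ind_top q
  · simp

theorem card_ind [Finite V] (q : V → W) (T : Subgroup W) (x₀ : V) (h0 : q x₀ ∈ T) (d : ℕ)
    (hdeg : Deg (d + 1) (ind q T)) : Nat.card V ≤ Nat.card {x : V // q x ∈ T} * 2 ^ d := by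
  classical
  have hne : ind q T ≠ 0 := by
    intro h
    have h1 := congrFun h x₀
    simp only [ind, if_pos h0, Pi.zero_apply] at h1
    exact absurd h1 (by decide)
  have h1 := card_le_of_deg d (ind q T) hdeg hne
  have hset : {x : V | ind q T x ≠ 0} = {x : V | q x ∈ T} := by
    ext x
    simp only [Set.mem_ofPred_eq, ind]
    by_cases h : q x ∈ T
    · simp [h]
    · simp [h]
  rw [hset] at h1
  have h2 : Nat.card {x : V // q x ∈ T} = {x : V | q x ∈ T}.ncard :=
    Nat.card_coe_set_eq _
  rw [h2]
  exact h1

/-- **Chevalley–Warning bound** for a quadratic map into a group of exponent two. -/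
theorem cw2 [Finite V] [Finite W] (hW : ∀ w : W, w * w = 1) (q : V → W) (β : V → V → W)
    (hq : ∀ x y, q (x * y) = q x * q y * β x y) (hβ : ∀ x y z, β (x * y) z = β x z * β y z)
    (T : Subgroup W) (x₀ : V) (h0 : q x₀ ∈ T) :
    Nat.card V * Nat.card T ^ 2 ≤ Nat.card {x : V // q x ∈ T} * Nat.card W ^ 2 := by
  obtain ⟨k, hdeg, hcard⟩ := exists_deg hW q T 2
    (fun K t _ htK hKt => (ind_index_two hW q β hq hβ K t htK hKt).1)
  have h1 := card_ind q T x₀ h0 (2 * k) hdeg
  calc Nat.card V * Nat.card T ^ 2
      ≤ (Nat.card {x : V // q x ∈ T} * 2 ^ (2 * k)) * Nat.card T ^ 2 :=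
        Nat.mul_le_mul_right _ h1
    _ = Nat.card {x : V // q x ∈ T} * (2 ^ k * Nat.card T) ^ 2 := by ring
    _ ≤ Nat.card {x : V // q x ∈ T} * Nat.card W ^ 2 :=
        Nat.mul_le_mul_left _ (Nat.pow_le_pow_left hcard 2)

/-- The linear case: if `β` takes its values in `T`, the bound is linear. -/
theorem cw1 [Finite V] [Finite W] (hW : ∀ w : W, w * w = 1) (q : V → W) (β : V → V → W)
    (hq : ∀ x y, q (x * y) = q x * q y * β x y) (hβ : ∀ x y z, β (x * y) z = β x z * β y z)
    (T : Subgroup W) (hβT : ∀ x y, β x y ∈ T) (x₀ : V) (h0 : q x₀ ∈ T) :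
    Nat.card V * Nat.card T ≤ Nat.card {x : V // q x ∈ T} * Nat.card W := by
  obtain ⟨k, hdeg, hcard⟩ := exists_deg hW q T 1
    (fun K t hTK htK hKt => (ind_index_two hW q β hq hβ K t htK hKt).2
      (fun x y => hTK (hβT x y)))
  rw [one_mul] at hdeg
  have h1 := card_ind q T x₀ h0 k hdeg
  calc Nat.card V * Nat.card T
      ≤ (Nat.card {x : V // q x ∈ T} * 2 ^ k) * Nat.card T := Nat.mul_le_mul_right _ h1
    _ = Nat.card {x : V // q x ∈ T} * (2 ^ k * Nat.card T) := by ring
    _ ≤ Nat.card {x : V // q x ∈ T} * Nat.card W := Nat.mul_le_mul_left _ hcard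

end Main

end Cfsg.Agent.Lib.Helper63.CW2
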