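import Mathlib
import Cfsg.Agent.Lib.Lead.OrdTypeStmt

/-!
# S3998 piece CNTQUOT (helper63)

For a normal `p`-subgroup `N` and `t ≤ p`, `rough X t` is the preimage of `rough (X ⧸ N) t`, hence
`cnt X t = |N| * cnt (X ⧸ N) t`.
-/

set_option autoImplicit false

universe u

namespace Cfsg.Agent.Lib.Helper63.OTCNTQUOT

open Cfsg.Agent.Lib.Lead.OrdTypeStmt

theorem rough_eq_preimage (X : Type u) [Group X] [Finite X] (p : ℕ) [Fact p.Prime]
    (N : Subgroup X) [N.Normal] (hN : IsPGroup p N) (t : ℕ) (ht : t ≤ p) :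
    rough X t = (QuotientGroup.mk : X → X ⧸ N) ⁻¹' rough (X ⧸ N) t := by
  ext x
  constructor
  · intro hx q hq hqd
    have h1 : orderOf ((QuotientGroup.mk x : X ⧸ N)) ∣ orderOf x :=
      orderOf_map_dvd (QuotientGroup.mk' N) x
    exact hx q hq (hqd.trans h1)
  · intro hx q hq hqd
    have hx' : ∀ q : ℕ, q.Prime → q ∣ orderOf ((QuotientGroup.mk x : X ⧸ N)) → t ≤ q := hx
    have h1 : x ^ orderOf ((QuotientGroup.mk x : X ⧸ N)) ∈ N := by
      rw [← QuotientGroup.eq_one_iff, QuotientGroup.mk_pow, pow_orderOf_eq_one]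
    obtain ⟨k, hk⟩ := hN ⟨_, h1⟩
    have h2 : x ^ (orderOf ((QuotientGroup.mk x : X ⧸ N)) * p ^ k) = 1 := by
      have h3 := congrArg Subtype.val hk
      rw [pow_mul]
      simpa using h3
    have h4 : orderOf x ∣ orderOf ((QuotientGroup.mk x : X ⧸ N)) * p ^ k :=
      orderOf_dvd_of_pow_eq_one h2
    rcases (hq.dvd_mul).mp (hqd.trans h4) with h5 | h5
    · exact hx' q hq h5
    · have h6 : q ∣ p := hq.dvd_of_dvd_pow h5
      have h7 : q = p := (Nat.prime_dvd_prime_iff_eq hq (Fact.out : p.Prime)).mp h6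
      rw [h7]; exact ht

theorem main : CntQuot.{u} := by
  intro X _ _ p _ N _ hN t ht
  unfold cnt
  rw [rough_eq_preimage X p N hN t ht]
  exact QuotientGroup.card_preimage_mk N (rough (X ⧸ N) t)

end Cfsg.Agent.Lib.Helper63.OTCNTQUOT
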