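import Mathlib
import Cfsg.Agent.S1140

/-!
# Multiplicative quadratic maps on a finite field of characteristic two

* `quad_char`: a multiplicative map `N : F → F` whose polarisation `N (x + y) + N x + N y` is
  biadditive and not zero is `x ↦ σ x * τ x` for two distinct field automorphisms.
* `odd_order`: if `x ↦ x * φ x` is injective for a field automorphism `φ` of a finite field,
  then `φ` has odd order.
-/

set_option autoImplicit false

namespace Cfsg.Agent.Lib.Helper63.QuadChar

theorem quad_char {F : Type*} [Field F] [Fintype F] [CharP F 2] (N : F → F)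
    (hNmul : ∀ x y, N (x * y) = N x * N y)
    (B : F →+ F →+ F) (hB : ∀ x y, B x y = N (x + y) + N x + N y) (hB0 : ∃ x y, B x y ≠ 0) :
    ∃ σ τ : F ≃+* F, σ ≠ τ ∧ ∀ x, N x = σ x * τ x := by
  classical
  obtain ⟨S, c, hc⟩ := Cfsg.Agent.S1140.result.2.2 B
  have hscal : ∀ l x y, B (l * x) (l * y) = N l * B x y := by
    intro l x y
    rw [hB, hB, ← mul_add, hNmul, hNmul, hNmul]; ring
  let m : (F ≃+* F) × (F ≃+* F) → (F × F →* F) := fun p =>
    ((p.1 : F →* F).comp (MonoidHom.fst F F)) * ((p.2 : F →* F).comp (MonoidHom.snd F F))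
  have hm : ∀ p (xy : F × F), m p xy = p.1 xy.1 * p.2 xy.2 := fun p xy => rfl
  have hminj : Function.Injective m := by
    intro p p' h
    have h1 : ∀ x y, p.1 x * p.2 y = p'.1 x * p'.2 y := fun x y => by
      have := DFunLike.congr_fun h (x, y)
      rwa [hm, hm] at this
    apply Prod.ext
    · ext x
      have := h1 x 1
      rwa [map_one, map_one, mul_one, mul_one] at this
    · ext x
      have := h1 1 x
      rwa [map_one, map_one, one_mul, one_mul] at this
  have hli := (linearIndependent_monoidHom (F × F) F).comp m hminj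
  have hkey : ∀ l, ∀ p ∈ S, c p * (p.1 l * p.2 l - N l) = 0 := by
    intro l
    apply linearIndependent_iff'.1 hli S
    funext xy
    simp only [Finset.sum_apply, Pi.smul_apply, Function.comp_apply, smul_eq_mul, Pi.zero_apply]
    have h1 := hscal l xy.1 xy.2
    rw [hc, hc, Finset.mul_sum, ← sub_eq_zero, ← Finset.sum_sub_distrib] at h1
    rw [← h1]
    apply Finset.sum_congr rfl
    intro p _
    rw [hm, map_mul, map_mul]; ring
  obtain ⟨x0, y0, hxy0⟩ := hB0
  have hex : ∃ p ∈ S, c p ≠ 0 := by
    by_contra hcon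
    push Not at hcon
    apply hxy0
    rw [hc]
    apply Finset.sum_eq_zero
    intro p hp
    rw [hcon p hp, zero_mul]
  obtain ⟨p, hp, hcp⟩ := hex
  have hN : ∀ l, N l = p.1 l * p.2 l := by
    intro l
    rcases mul_eq_zero.1 (hkey l p hp) with h | h
    · exact absurd h hcp
    · exact (sub_eq_zero.1 h).symm
  refine ⟨p.1, p.2, ?_, hN⟩
  intro h
  apply hxy0
  rw [hB, hN, hN, hN, ← h, map_add]
  have h2 : (2 : F) = 0 := by
    have := CharP.cast_eq_zero F 2
    exact_mod_cast this
  linear_combination (p.1 x0 * p.1 y0 + p.1 x0 * p.1 x0 + p.1 y0 * p.1 y0) * h2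

theorem odd_order {F : Type*} [Field F] [Finite F] (φ : F ≃+* F)
    (hinj : ∀ x y : F, x * φ x = y * φ y → x = y) : Odd (orderOf φ) := by
  classical
  have hfinA : Finite (RingAut F) :=
    Finite.of_injective (fun f : F ≃+* F => (f : F → F)) DFunLike.coe_injective
  have step1 : ∀ u : F, φ (φ u) = u → φ u = u := by
    intro u hu
    by_cases h0 : u = 0
    · rw [h0, map_zero]
    have hφu : φ u ≠ 0 := fun h => h0 (φ.injective (h.trans (map_zero φ).symm))
    have h1 : (u / φ u) * φ (u / φ u) = 1 * φ 1 := by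
      rw [map_div₀, hu, map_one]; field_simp
    have h2 := hinj _ _ h1
    exact ((div_eq_one_iff_eq hφu).1 h2).symm
  let G₁ : Subgroup (RingAut F) := Subgroup.zpowers φ
  let G₂ : Subgroup (RingAut F) := Subgroup.zpowers (φ ^ 2)
  have hS : FixedPoints.subfield G₁ F = FixedPoints.subfield G₂ F := by
    ext x
    constructor
    · intro hx g
      obtain ⟨g, hg⟩ := g
      have hg' : g ∈ G₁ := by
        obtain ⟨n, rfl⟩ := Subgroup.mem_zpowers_iff.1 hg
        exact Subgroup.zpow_mem _ (Subgroup.pow_mem _ (Subgroup.mem_zpowers φ) 2) n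
      exact hx ⟨g, hg'⟩
    · intro hx g
      have h2 : (φ ^ 2) • x = x := hx ⟨φ ^ 2, Subgroup.mem_zpowers _⟩
      have h3 : φ x = x := step1 x (by simpa [pow_two, RingAut.smul_def, RingAut.mul_apply] using h2)
      obtain ⟨g, hg⟩ := g
      obtain ⟨n, rfl⟩ := Subgroup.mem_zpowers_iff.1 hg
      have h4 : φ ∈ MulAction.stabilizer (RingAut F) x := h3
      exact (MulAction.stabilizer (RingAut F) x).zpow_mem h4 n
  have hfr : ∀ S T : Subfield F, S = T → Module.finrank S F = Module.finrank T F := by
    rintro S T rfl; rfl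
  have _i1 := Fintype.ofFinite G₁
  have _i2 := Fintype.ofFinite G₂
  have c1 := FixedPoints.finrank_eq_card G₁ F
  have c2 := FixedPoints.finrank_eq_card G₂ F
  have c3 : Fintype.card G₁ = Fintype.card G₂ := by rw [← c1, ← c2]; exact hfr _ _ hS
  have c4 : Nat.card G₁ = Nat.card G₂ := by
    rw [← Fintype.card_eq_nat_card, ← Fintype.card_eq_nat_card]; exact c3
  have c5 : orderOf φ = orderOf (φ ^ 2) := by
    rw [← Nat.card_zpowers φ, ← Nat.card_zpowers (φ ^ 2)]; exact c4
  rw [orderOf_pow] at c5
  have hpos : 0 < orderOf φ := orderOf_pos φ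
  by_contra hodd
  rw [Nat.not_odd_iff_even] at hodd
  have h2 : (orderOf φ).gcd 2 = 2 := Nat.gcd_eq_right hodd.two_dvd
  rw [h2] at c5
  omega

end Cfsg.Agent.Lib.Helper63.QuadChar
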