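import Mathlib
import Cfsg.Agent.Lib.Helper18.ReeOutStmt

set_option autoImplicit false

/-!
helper63: S2127 piece SYLU (`{x t u v}` is a Sylow 3-subgroup of order `q³`).
-/

namespace Cfsg.Agent.Lib.Helper63.ReeOutSYLU

universe u v

open Cfsg.Agent.Lib.Helper18.ReeOutStmt

theorem x_zero {G : Type u} [Group G] {K : Type v} [Field K] [Fintype K] {m : ℕ}
    {φ : K →+* K} {x : K → K → K → G} {e : K → G} (hp : OPar G K m φ x e) : x 0 0 0 = 1 := by
  have h : x 0 0 0 * x 0 0 0 = x 0 0 0 := by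
    rw [hp.x_mul]
    simp
  exact mul_eq_left.mp h

/-- the unipotent subgroup `{x t u v}` -/
def unip {G : Type u} [Group G] [Finite G] {K : Type v} [Field K] [Fintype K] {m : ℕ}
    {φ : K →+* K} {x : K → K → K → G} {e : K → G} (hp : OPar G K m φ x e) : Subgroup G where
  carrier := {g | ∃ t u v, g = x t u v}
  mul_mem' := by
    rintro a b ⟨t, u, v, rfl⟩ ⟨t', u', v', rfl⟩
    exact ⟨_, _, _, hp.x_mul t u v t' u' v'⟩
  one_mem' := ⟨0, 0, 0, (x_zero hp).symm⟩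
  inv_mem' := by
    rintro a ⟨t', u', v', rfl⟩
    have hpow : ∀ n : ℕ, ∃ t u v, (x t' u' v') ^ n = x t u v := by
      intro n
      induction n with
      | zero => exact ⟨0, 0, 0, by rw [pow_zero]; exact (x_zero hp).symm⟩
      | succ n ih =>
        obtain ⟨t, u, v, h1⟩ := ih
        exact ⟨_, _, _, by rw [pow_succ, h1]; exact hp.x_mul t u v t' u' v'⟩
    have h1 : (x t' u' v') ^ (orderOf (x t' u' v') - 1) * x t' u' v' = 1 := by
      rw [← pow_succ, Nat.sub_add_cancel (orderOf_pos _), pow_orderOf_eq_one]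
    have h2 : (x t' u' v')⁻¹ = (x t' u' v') ^ (orderOf (x t' u' v') - 1) :=
      (eq_inv_of_mul_eq_one_left h1).symm
    show ∃ t u v, (x t' u' v')⁻¹ = x t u v
    rw [h2]
    exact hpow _

theorem mem_unip {G : Type u} [Group G] [Finite G] {K : Type v} [Field K] [Fintype K] {m : ℕ}
    {φ : K →+* K} {x : K → K → K → G} {e : K → G} (hp : OPar G K m φ x e) (g : G) :
    g ∈ unip hp ↔ ∃ t u v, g = x t u v := Iff.rfl

theorem card_unip {G : Type u} [Group G] [Finite G] {K : Type v} [Field K] [Fintype K] {m : ℕ}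
    {φ : K →+* K} {x : K → K → K → G} {e : K → G} (hp : OPar G K m φ x e) :
    Nat.card ↥(unip hp) = (3 ^ (2 * m + 1)) ^ 3 := by
  have hbij : Function.Bijective
      (fun p : K × K × K => (⟨x p.1 p.2.1 p.2.2, ⟨p.1, p.2.1, p.2.2, rfl⟩⟩ : ↥(unip hp))) := by
    constructor
    · rintro ⟨t, u, v⟩ ⟨t', u', v'⟩ h
      have h1 : x t u v = x t' u' v' := congrArg Subtype.val h
      obtain ⟨h2, h3, h4⟩ := hp.x_inj _ _ _ _ _ _ h1
      rw [h2, h3, h4]
    · rintro ⟨g, t, u, v, rfl⟩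
      exact ⟨(t, u, v), rfl⟩
  rw [← Nat.card_congr (Equiv.ofBijective _ hbij), Nat.card_prod, Nat.card_prod,
    Nat.card_eq_fintype_card, hp.cardK]
  ring

theorem not_three_dvd (m : ℕ) :
    ¬ 3 ∣ (3 ^ (2 * m + 1) - 1) * ((3 ^ (2 * m + 1)) ^ 3 + 1) := by
  have h1 : 3 ^ (2 * m + 1) = 3 * 3 ^ (2 * m) := by
    rw [pow_succ]
    ring
  have hj : 0 < 3 ^ (2 * m) := by positivity
  have h3 : (3 ^ (2 * m + 1)) ^ 3 = 3 * (9 * (3 ^ (2 * m)) ^ 3) := by
    rw [h1]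
    ring
  intro h
  rcases (Nat.Prime.dvd_mul (by norm_num)).mp h with h | h
  · rw [h1] at h
    generalize 3 ^ (2 * m) = j at h hj
    omega
  · rw [h3] at h
    generalize (3 ^ (2 * m)) ^ 3 = w at h
    omega

theorem main : SYLU.{u, v} := by
  intro G _ _ K _ _ m φ x e hp hG
  haveI : Fact (Nat.Prime 3) := ⟨by norm_num⟩
  have hc := card_unip hp
  have hUp : IsPGroup 3 ↥(unip hp) := IsPGroup.of_card (n := 3 * (2 * m + 1)) (by
    rw [hc, ← pow_mul, mul_comm])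
  obtain ⟨P, hP⟩ := hUp.exists_le_sylow
  obtain ⟨k, hk⟩ := IsPGroup.iff_card.mp P.isPGroup'
  have hdvd : 3 ^ k ∣ (3 ^ (2 * m + 1)) ^ 3 *
      ((3 ^ (2 * m + 1) - 1) * ((3 ^ (2 * m + 1)) ^ 3 + 1)) := by
    rw [← hk, ← mul_assoc, ← hG]
    exact Subgroup.card_subgroup_dvd_card _
  have hcop : Nat.Coprime (3 ^ k) ((3 ^ (2 * m + 1) - 1) * ((3 ^ (2 * m + 1)) ^ 3 + 1)) :=
    Nat.Coprime.pow_left k ((Nat.Prime.coprime_iff_not_dvd (by norm_num)).mpr (not_three_dvd m))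
  have hdvd2 : 3 ^ k ∣ (3 ^ (2 * m + 1)) ^ 3 := hcop.dvd_of_dvd_mul_right hdvd
  have hle : Nat.card ↥(P : Subgroup G) ≤ Nat.card ↥(unip hp) := by
    rw [hk, hc]
    exact Nat.le_of_dvd (by positivity) hdvd2
  have heq : unip hp = (P : Subgroup G) := Subgroup.eq_of_le_of_card_ge hP hle
  refine ⟨P, fun g => ?_, ?_⟩
  · rw [← heq]
    exact mem_unip hp g
  · rw [← heq]
    exact hc

end Cfsg.Agent.Lib.Helper63.ReeOutSYLU
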