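import Mathlib
import Cfsg.Prelude.Def_OddOrderLocal
import Cfsg.Agent.Lib.Helper9.S51IStmt

set_option autoImplicit false

/-!
helper63: interface for S1366 (Bender–Glauberman 14.7: existence and uniqueness of `M*`).

Setting `Cfg M K U H x p`: `M = K U M_σ` (`IsSigmaDecomposition M K U`), `x ∈ K` of prime order
`p`, `H` a maximal subgroup over `N_G(⟨x⟩)`.  `K* := Ks M K = M_σ ∩ C_G(K)`, `Z := K ⊔ K*`.
Claim: `H` is the `M*` of S1366: `K = H_σ ∩ C_G(K*)` and `K*` is a Hall `κ(H)`-subgroup of `H`.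
Uniqueness is S1367.

Tools: the BASE pieces of `Helper9.S51IStmt` for `HS M ⟨x⟩ H p` (`L3`, `SDj`, `MH`, `CentC`, `L4`,
`CentD`, `FixC`), S1352, S1354, S1351 (`KCyc`), S1446, `Helper22.BG147N0`,
`Helper73.BG143Final.primes`, S1420, `Helper90.FamCount.main`.

Route.
* `p ∈ σ(H)` (`L3`), `M_σ ∩ H = K*`, `K*` is a `κ(H)`-group (`KsKap`).
* A prime `q` of `|K|` outside `σ(H)` is in `κ(H)` (`KapQ`).
* A Hall `κ(H)`-subgroup `K₁ ⊇ K*` of `H` (cyclic by S1351) lies in `Z`, and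
  `C_{H_σ}(K₁) = M ∩ H_σ` (`HallZ`).
* If some prime `q` of `|K|` is outside `σ(H)`: `K₁ ⊇ K* ⟨y⟩` (`o(y) = q`) has composite order, so
  `H = H_σ K₁` (`N1`: `U ≠ 1` forces `|K|` prime), `H = H_σ Z` (`K1Ex`, `CovH`).  Likewise
  `M = M_σ K` (`CovM`).
* `Fam`: all primes of `|K|` are in `σ(H)`; otherwise the maximal subgroups `M` and `H_q`
  (`q` running over representatives) contradict `Helper90.FamCount.main` with `W = Z`.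
* Then `K ≤ H_σ`, `K₁ ∩ K = 1`, `K₁ = K*` (`HallKs`) and `H_σ ∩ C(K*) = M ∩ H_σ` is a
  `κ(M)`-group containing `K`, so equals `K` (`KEq`).
-/

namespace Cfsg.Agent.Lib.Helper63.S66Stmt

universe u

open Cfsg.Agent.Lib.Helper9.S51IStmt

/-- `K* = C_{M_σ}(K)`. -/
abbrev Ks {G : Type u} [Group G] (M K : Subgroup G) : Subgroup G :=
  Cfsg.sigmaCore M ⊓ Subgroup.centralizer (K : Set G)

/-- The setting: `M = K U M_σ`, `x ∈ K` of prime order `p`, `H` maximal over `N_G(⟨x⟩)`. -/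
structure Cfg {G : Type u} [Group G] (M K U H : Subgroup G) (x : G) (p : ℕ) : Prop where
  hM : IsCoatom M
  hKU : Cfsg.IsSigmaDecomposition M K U
  hx : x ∈ K
  hxo : orderOf x = p
  hp : p.Prime
  hH : IsCoatom H
  hN : Subgroup.normalizer ((Subgroup.zpowers x : Subgroup G) : Set G) ≤ H

/-- S1351, second clause (to be discharged by `Cfsg.Agent.S1351.result`). -/
def KCyc : Prop :=
  ∀ {G : Type u} [Group G] [Finite G], Cfsg.IsMinSimpleOddOrder G →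
  ∀ (M : Subgroup G), IsCoatom M → ∀ K : Subgroup G, Cfsg.IsPiHallOf (Cfsg.kappa M) K M →
    IsCyclic K

/-- HSP: the base setting `HS M ⟨x⟩ H p` of `Helper9.S51IStmt`.  (`p ∣ |K|` and `K` is a Hall
`κ(M)`-subgroup: `p ∈ κ(M)`; `|⟨x⟩| = p`; `p ∈ σ(H)` by `L3`.) -/
def HSP : Prop :=
  ∀ {G : Type u} [Group G] [Finite G], Cfsg.IsMinSimpleOddOrder G →
  ∀ (M K U H : Subgroup G) (x : G) (p : ℕ), Cfg M K U H x p → HS M (Subgroup.zpowers x) H p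

/-- ZLE: `Z = K ⊔ K* ≤ H` and `Z ≤ M`.  (`K` is abelian and contains `x`, so
`K ≤ N_G(⟨x⟩) ≤ H`; `K* ≤ C_G(K) ≤ C_G(⟨x⟩) ≤ N_G(⟨x⟩)`; `K ≤ M` (`hall.1`),
`K* ≤ M_σ ≤ M`.) -/
def ZLe : Prop :=
  ∀ {G : Type u} [Group G] [Finite G], Cfsg.IsMinSimpleOddOrder G →
  ∀ (M K U H : Subgroup G) (x : G) (p : ℕ), Cfg M K U H x p →
    K ⊔ Ks M K ≤ H ∧ K ⊔ Ks M K ≤ M

/-- PRIM: `K* ≠ 1`; `C_M(k) ≤ K ⊔ K*` for `1 ≠ k ∈ K`; `(K ⊔ K*) ∩ M_σ ≤ K*`.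
(First two: `Cfsg.Agent.S1354.result hG M hM K hKU.cyclic hKU.hall`.  Third: `g = k c`
(`Helper9.Narrow4.mem_sup_of_commute`), `k = g c⁻¹ ∈ K ∩ M_σ`, whose order divides `|K|`
(primes in `κ(M)`, so outside `σ(M)`) and `|M_σ|` (primes in `σ(M)`,
`Helper9.BG11b.mem_sigma_of_dvd`): `k = 1`.) -/
def Prim : Prop :=
  ∀ {G : Type u} [Group G] [Finite G], Cfsg.IsMinSimpleOddOrder G →
  ∀ (M K U : Subgroup G), IsCoatom M → Cfsg.IsSigmaDecomposition M K U →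
    Ks M K ≠ ⊥ ∧ (∀ k ∈ K, k ≠ 1 → ∀ g ∈ M, g * k = k * g → g ∈ K ⊔ Ks M K) ∧
      ∀ g ∈ K ⊔ Ks M K, g ∈ Cfsg.sigmaCore M → g ∈ Ks M K

/-- N1 (helper22, board #4941): `U ≠ 1` forces `|K|` prime.  (S1446 with `K := U`, `R := K`,
`M := M_σ`: `U ∩ K = 1` (`compl`), `K ≤ N(U)` (`normal`), `C_U(k) = 1` (S1353), `U ⊔ K` solvable
of odd order (a proper subgroup of `G`), `M_σ ≠ 1` (it contains `K* ≠ 1`, S1354), `M_σ`
nilpotent (`Helper22.BG147N0.nilpotent_of_U_ne_bot`), `U, K ≤ M ≤ N(M_σ)`, `|U ⊔ K|` prime to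
`|M_σ|` (`U ⊔ K` meets `M_σ` trivially and `M_σ` is a normal Hall subgroup of `M`:
`Helper90.BG14U.uset_of_decomp`, `Helper22.BG1210.not_dvd_compl_of_sigma`), `C_{M_σ}(U) = 1`
(S1429 for a prime `s ∣ |U|`, `s ∉ σ(M) ∪ κ(M)` by `BG147N0.prime_of_U`, and a Sylow
`s`-subgroup of `M` inside `U`: its `Ω₁` lies in `U`), prime action `C_{M_σ}(k) = C_{M_σ}(K)`
(S1354 as in `Prim`).) -/
def N1 : Prop :=
  ∀ {G : Type u} [Group G] [Finite G], Cfsg.IsMinSimpleOddOrder G →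
  ∀ (M K U : Subgroup G), IsCoatom M → Cfsg.IsSigmaDecomposition M K U → K ≠ ⊥ → U ≠ ⊥ →
    (Nat.card K).Prime

/-- HALLGE: a `κ(H)`-subgroup of the (solvable) maximal subgroup `H` lies in a Hall
`κ(H)`-subgroup.  (`Helper73.BG143Final.hallK` gives a Hall `κ(H)`-subgroup `K₀`; Hall's theorem
in the solvable group `H` (`Helper91.Hall.hall_conj`, `Helper51.EqC2.hall_conj_sub`,
`Helper73.NilHallFusion.hall_conj_sub`) puts `Y` in a conjugate `h K₀ h⁻¹`, `h ∈ H`, which is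
again a Hall `κ(H)`-subgroup of `H`.) -/
def HallGe : Prop :=
  ∀ {G : Type u} [Group G] [Finite G], Cfsg.IsMinSimpleOddOrder G →
  ∀ (H Y : Subgroup G), IsCoatom H → Y ≤ H →
    (∀ p : ℕ, p.Prime → p ∣ Nat.card Y → p ∈ Cfsg.kappa H) →
    ∃ K₁ : Subgroup G, Cfsg.IsPiHallOf (Cfsg.kappa H) K₁ H ∧ Y ≤ K₁

/-- KAPQ: an element `y ∈ K` of prime order `q ∉ σ(H)` has `q ∈ κ(H)`.  (`y ∈ K ≤ H`, `y`
centralizes `x ∈ H_σ ∖ 1` (`p ∈ σ(H)` by `L3`, `Helper9.BG11b.le_sigmaCore`);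
`Helper73.BG143Final.primes`: `q ∈ κ(H)` or `q ∈ τ₂(H)`.  In the second case S1420 (clause 4,
with a complement of `H_σ` from `Helper23.BG1361.exists_compl_ge`) makes `H` the only maximal
subgroup over `C_G(y)`; a maximal `H' ⊇ N_G(⟨y⟩)` (`Helper9.BG11b.normalizer_ne_top`,
`exists_coatom_ge`) is then `H`, and `L3` for `(M, ⟨y⟩, H, q)` gives `q ∈ σ(H)`.) -/
def KapQ : Prop :=
  ∀ {G : Type u} [Group G] [Finite G], Cfsg.IsMinSimpleOddOrder G →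
  ∀ (M K U H : Subgroup G) (x : G) (p : ℕ), Cfg M K U H x p →
    ∀ y ∈ K, (orderOf y).Prime → orderOf y ∉ Cfsg.sigma H → orderOf y ∈ Cfsg.kappa H

/-- KSKAP: every prime of `|K*|` is in `κ(H)`.  (Cauchy: `c ∈ K*` of order `t`;
`K* ≤ CR M ⟨x⟩` as `⟨x⟩ ≤ K`; `L4` for `HS M ⟨x⟩ H p`.) -/
def KsKap : Prop :=
  ∀ {G : Type u} [Group G] [Finite G], Cfsg.IsMinSimpleOddOrder G →
  ∀ (M K U H : Subgroup G) (x : G) (p : ℕ), Cfg M K U H x p →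
    ∀ t : ℕ, t.Prime → t ∣ Nat.card ↥(Ks M K) → t ∈ Cfsg.kappa H

/-- HALLZ: a cyclic Hall `κ(H)`-subgroup `K₁ ⊇ K*` of `H` lies in `Z = K ⊔ K*`, and
`C_{H_σ}(K₁) = M ∩ H_σ`.  (`c ∈ K* ∖ 1` (`Prim`), `c ∈ K₁`.  `K₁` abelian: `K₁ ≤ C_G(c) ≤ M`
(`CentC`, `c ∈ CR M ⟨x⟩`).  S1354 for `(H, K₁)`: `C_H(c) = K₁ ⊔ K₁*`, `K₁* := C_{H_σ}(K₁)`.
`FixC`: `C_{H_σ}(c) = M ∩ H_σ`.  So `K₁* ≤ C_{H_σ}(c) = M ∩ H_σ`, and `d ∈ M ∩ H_σ` lies in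
`C_H(c) = K₁ ⊔ K₁*`, `d = k d'`, `k = d d'⁻¹ ∈ K₁ ∩ H_σ = 1` (orders: primes in `κ(H)` resp.
`σ(H)`).  Now `x ∈ M ∩ H_σ = K₁*`: `K₁` centralizes `x`, `K₁ ≤ C_M(x) ≤ K ⊔ K*` (`Prim`).) -/
def HallZ : Prop :=
  ∀ {G : Type u} [Group G] [Finite G], Cfsg.IsMinSimpleOddOrder G →
  ∀ (M K U H : Subgroup G) (x : G) (p : ℕ), Cfg M K U H x p →
    ∀ K₁ : Subgroup G, Cfsg.IsPiHallOf (Cfsg.kappa H) K₁ H → IsCyclic K₁ → Ks M K ≤ K₁ →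
      K₁ ≤ K ⊔ Ks M K ∧
      Cfsg.sigmaCore H ⊓ Subgroup.centralizer (K₁ : Set G) = M ⊓ Cfsg.sigmaCore H

/-- K1EX: if `y ∈ K` has prime order `q ∉ σ(H)`, there is a standard factorisation
`H = K₁ U₁ H_σ` with `y ∈ K₁`, `K* ≤ K₁ ≤ Z`, `C_{H_σ}(K₁) = M ∩ H_σ` and `|K₁|` not prime.
(`Y := K* ⊔ ⟨y⟩ ≤ H` (`ZLe`); `|Y|` divides `|K*| q` (`Helper63.S28FR.card_sup_dvd`, `y`
centralizes `K*`), so `Y` is a `κ(H)`-group (`KsKap`, `KapQ`); `HallGe`: `K₁ ⊇ Y`; `KCyc`;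
`HallZ`; S1352 gives `U₁`; `|K₁|` is divisible by `q` and by a prime `t` of `|K*|`
(`K* ≠ 1`), `t ≠ q` since `t ∈ σ(M)` and `q ∈ κ(M)`.) -/
def K1Ex : Prop :=
  ∀ {G : Type u} [Group G] [Finite G], Cfsg.IsMinSimpleOddOrder G →
  ∀ (M K U H : Subgroup G) (x : G) (p : ℕ), Cfg M K U H x p →
    ∀ y ∈ K, (orderOf y).Prime → orderOf y ∉ Cfsg.sigma H →
      ∃ K₁ U₁ : Subgroup G, Cfsg.IsSigmaDecomposition H K₁ U₁ ∧ y ∈ K₁ ∧ Ks M K ≤ K₁ ∧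
        K₁ ≤ K ⊔ Ks M K ∧
        Cfsg.sigmaCore H ⊓ Subgroup.centralizer (K₁ : Set G) = M ⊓ Cfsg.sigmaCore H ∧
        ¬ (Nat.card K₁).Prime

/-- COVH: if `y ∈ K` has prime order `q ∉ σ(H)`, then `H = H_σ Z` and `C_{H_σ}(y) ≤ Z`.
(`K1Ex`; `N1` for `(H, K₁, U₁)`: `U₁ = 1`, so `H = K₁ ⊔ H_σ` (`compl`), `h = a k₁` with
`a ∈ H_σ` (`H_σ` is normalized by `K₁ ≤ H`).  `a ∈ H_σ` commuting with `y ∈ K₁ ∖ 1`: S1354 for
`(H, K₁)` gives `a ∈ K₁ ⊔ K₁*`, hence `a ∈ K₁* = M ∩ H_σ` (as in `Prim`, third clause, for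
`H`); then `a ∈ C_M(y) ≤ K ⊔ K*` (`Prim` for `M`).) -/
def CovH : Prop :=
  ∀ {G : Type u} [Group G] [Finite G], Cfsg.IsMinSimpleOddOrder G →
  ∀ (M K U H : Subgroup G) (x : G) (p : ℕ), Cfg M K U H x p →
    ∀ y ∈ K, (orderOf y).Prime → orderOf y ∉ Cfsg.sigma H →
      (∀ h ∈ H, ∃ a ∈ Cfsg.sigmaCore H, ∃ b ∈ K ⊔ Ks M K, h = a * b) ∧
      (∀ a ∈ Cfsg.sigmaCore H, a * y = y * a → a ∈ K ⊔ Ks M K)

/-- COVM: if `|K|` is not prime then `M = M_σ K`.  (`N1`: `U = 1`; `compl`: `m ∈ K ⊔ M_σ`,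
`m = a k` with `a ∈ M_σ` as `K ≤ M` normalizes `M_σ`.) -/
def CovM : Prop :=
  ∀ {G : Type u} [Group G] [Finite G], Cfsg.IsMinSimpleOddOrder G →
  ∀ (M K U : Subgroup G), IsCoatom M → Cfsg.IsSigmaDecomposition M K U → K ≠ ⊥ →
    ¬ (Nat.card K).Prime → ∀ m ∈ M, ∃ a ∈ Cfsg.sigmaCore M, ∃ b ∈ K, m = a * b

/-- FAM: every prime of `|K|` is in `σ(H)`. -/
def Fam : Prop :=
  ∀ {G : Type u} [Group G] [Finite G], Cfsg.IsMinSimpleOddOrder G →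
  ∀ (M K U H : Subgroup G) (x : G) (p : ℕ), Cfg M K U H x p →
    ∀ q : ℕ, q.Prime → q ∣ Nat.card K → q ∈ Cfsg.sigma H

/-- HALLKS: if all primes of `|K|` are in `σ(H)`, then `K*` is a Hall `κ(H)`-subgroup of `H`.
(`HallGe` for `Y := K*` (`ZLe`, `KsKap`): `K₁ ⊇ K*`, cyclic (`KCyc`), `K₁ ≤ K ⊔ K*`
(`HallZ`).  `k₁ = k c` (`mem_sup_of_commute`), `k = k₁ c⁻¹ ∈ K₁ ∩ K`, whose order divides
`|K₁|` (primes in `κ(H)`, outside `σ(H)`) and `|K|` (primes in `σ(H)`): `k = 1`, `K₁ ≤ K*`,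
`K₁ = K*`.) -/
def HallKs : Prop :=
  ∀ {G : Type u} [Group G] [Finite G], Cfsg.IsMinSimpleOddOrder G →
  ∀ (M K U H : Subgroup G) (x : G) (p : ℕ), Cfg M K U H x p →
    (∀ q : ℕ, q.Prime → q ∣ Nat.card K → q ∈ Cfsg.sigma H) →
    Cfsg.IsPiHallOf (Cfsg.kappa H) (Ks M K) H

/-- KEQ: if all primes of `|K|` are in `σ(H)`, then `K = H_σ ∩ C_G(K*)`.  (`⊆`: `K ≤ H`
(`ZLe`), every `k ∈ K` has its order a `σ(H)`-number: `Helper90.FamCount.mem_sigmaCore_of_orderOf`;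
`K* ≤ C(K)`.  `⊇`: `c ∈ K* ∖ 1` (`Prim`); `H_σ ∩ C(K*) ≤ C_{H_σ}(c) = M ∩ H_σ =: D` (`FixC`).
Every `d ∈ D` of prime order `t`: `t ∈ σ(H)` (`mem_sigma_of_dvd`), so `t ∉ σ(M)` (`SDj`);
`d ∈ M` centralizes `c ∈ M_σ ∖ 1`; `Helper73.BG143Final.primes`: `t ∈ κ(M)` or `t ∈ τ₂(M)`; in
the second case S1420 (clause 4) makes `M` the only maximal subgroup over `C_G(d)`, but
`C_G(d) ≤ H` (`CentD`), so `H = M` and `p ∈ σ(M)`, against `p ∈ κ(M)`.  So `D` is a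
`κ(M)`-subgroup of `M` containing the Hall `κ(M)`-subgroup `K`: `D = K` (a prime of `|D : K|`
would be in `κ(M)` and divide `K.relIndex M`).) -/
def KEq : Prop :=
  ∀ {G : Type u} [Group G] [Finite G], Cfsg.IsMinSimpleOddOrder G →
  ∀ (M K U H : Subgroup G) (x : G) (p : ℕ), Cfg M K U H x p →
    (∀ q : ℕ, q.Prime → q ∣ Nat.card K → q ∈ Cfsg.sigma H) →
    K = Cfsg.sigmaCore H ⊓ Subgroup.centralizer ((Ks M K : Subgroup G) : Set G)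

end Cfsg.Agent.Lib.Helper63.S66Stmt
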