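import Mathlib
import Cfsg.Prelude.Def_OddOrderLocal

set_option autoImplicit false

/-!
helper63: interface for S1367 (Bender–Glauberman 14.7-type statement).

Setting: `M = K U M_σ` (`IsSigmaDecomposition M K U`), `K ≠ 1`, `K* = M_σ ∩ C_G(K)`, `M*` maximal
with `K = M*_σ ∩ C_G(K*)` and `K*` a Hall `κ(M*)`-subgroup of `M*`.  Claim: `M` is the only
maximal subgroup over `C_G(X)` for `X ≤ K*` of prime order, and `M*` the only one over `C_G(Y)`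
for `Y ≤ K` of prime order.

Route.
* Existence (`Ex1`, `Ex2`) is `ClaimC` of `Helper73.BG143Stmt` (BG 14.3): `x ∈ K*` is centralized
  by `k ∈ K` of prime order in `κ(M)`; `k ∈ K ≤ M*_σ` is centralized by `y ∈ K*` of prime order
  in `κ(M*)`.
* Uniqueness for `X = ⟨x⟩ ≤ K*` of order `q` (`Uq1`).  Let `L ≠ M` be maximal over `C_G(X)`.
  `q ∉ σ(L)` (S1378 + S1404).  If `X ≤ (M_σ)'` then S1423.  Otherwise `N_G(X) = C_G(X)` (`NC1`),
  so `q ∈ τ₂(L)` (`Rank2`), `L` is not conjugate to `M*` (rank), so `p = |k| ∉ σ(L)` for `k ∈ K`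
  of prime order; then `Tail` with `t = k`.
* Uniqueness for `Y ≤ K` of order `p` (`Uq2`): the same with `M*`, `t = y ∈ K*` (`NC2`).
* `Tail`: a complement `E` of `L_σ` containing `⟨t⟩ × Y`, `A ≤ E` elementary abelian of order
  `q²`, `Y ≤ A`, `C_A(t) = Y`; `C_{L_σ}(Y) = 1` (S1418); nonabelian Sylow `q`: S1419 forces
  `Y = C_A(L_σ)`, absurd; abelian: `N_G(A) ≤ N_G(C_A(t)) = N_G(Y) ≤ L` (`AbNorm`), against S1418.
-/

namespace Cfsg.Agent.Lib.Helper63.S67Stmt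

universe u

/-- EX1: `C_G(X) ≤ M` for `X ≤ K*` of prime order. -/
def Ex1 : Prop :=
  ∀ {G : Type u} [Group G] [Finite G], Cfsg.IsMinSimpleOddOrder G →
  ∀ (M K U : Subgroup G), IsCoatom M → Cfsg.IsSigmaDecomposition M K U → K ≠ ⊥ →
  ∀ X : Subgroup G, X ≤ Cfsg.sigmaCore M ⊓ Subgroup.centralizer (K : Set G) →
    (Nat.card X).Prime → Subgroup.centralizer (X : Set G) ≤ M

/-- EX2: `C_G(Y) ≤ M*` for `Y ≤ K` of prime order. -/
def Ex2 : Prop :=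
  ∀ {G : Type u} [Group G] [Finite G], Cfsg.IsMinSimpleOddOrder G →
  ∀ (M K U Mstar : Subgroup G), IsCoatom M → Cfsg.IsSigmaDecomposition M K U → K ≠ ⊥ →
    IsCoatom Mstar →
    K = Cfsg.sigmaCore Mstar ⊓ Subgroup.centralizer
      ((Cfsg.sigmaCore M ⊓ Subgroup.centralizer (K : Set G) : Subgroup G) : Set G) →
    Cfsg.IsPiHallOf (Cfsg.kappa Mstar)
      (Cfsg.sigmaCore M ⊓ Subgroup.centralizer (K : Set G)) Mstar →
  ∀ Y : Subgroup G, Y ≤ K → (Nat.card Y).Prime → Subgroup.centralizer (Y : Set G) ≤ Mstar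

/-- NC1: for `Y ≤ K*` of prime order with `C_G(Y) ≤ M` and `Y ≰ (M_σ)'`: `N_G(Y) = C_G(Y)`.
(S1404: `N_G(Y) = N_M(Y) C_G(Y)`.  For `n ∈ N_M(Y)`: `k₀ ∈ K` of prime order `p`, `T ∋ k₀` a
Sylow `p`-subgroup of `C_M(Y) ⊴ N_M(Y)`, Frattini `n = c x`, `x ∈ N_M(Y) ∩ N(T)`; `T` is cyclic
(`p ∈ κ(M)`), so `x` normalizes `⟨k₀⟩`, `[x, k₀] ∈ ⟨k₀⟩ ∩ M' = 1` (`Tau1`), so
`x ∈ C_M(k₀) = K ⊔ K*` (S1354), `x = a b`, `b ∈ N_{K*}(Y)`; if `b ∉ C(Y)` then
`Y = [Y, b] ≤ (M_σ)'`.) -/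
def NC1 : Prop :=
  ∀ {G : Type u} [Group G] [Finite G], Cfsg.IsMinSimpleOddOrder G →
  ∀ (M K U : Subgroup G), IsCoatom M → Cfsg.IsSigmaDecomposition M K U → K ≠ ⊥ →
  ∀ Y : Subgroup G, Y ≤ Cfsg.sigmaCore M ⊓ Subgroup.centralizer (K : Set G) →
    (Nat.card Y).Prime → Subgroup.centralizer (Y : Set G) ≤ M →
    ¬ Y ≤ ⁅Cfsg.sigmaCore M, Cfsg.sigmaCore M⁆ →
    Subgroup.normalizer (Y : Set G) ≤ Subgroup.centralizer (Y : Set G)

/-- NC2: for `Y ≤ K` of prime order: `N_G(Y) = C_G(Y)`.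
(`Y ≤ K ≤ M*_σ`, S1404 for `M*`: `N_G(Y) = N_{M*}(Y) C_G(Y)`.  For `n ∈ N_{M*}(Y)`: `y₀ ∈ K*` of
prime order `q ∈ κ(M*)`, `T ∋ y₀` a Sylow `q`-subgroup of `C_{M*}(Y) ⊴ N_{M*}(Y)`, Frattini
`n = c x`, `T` cyclic, `x ∈ N_G(⟨y₀⟩) ≤ M` (S1404 for `M`, `q ∈ σ(M)`, and `C_G(⟨y₀⟩) ≤ M` by the
hypothesis), so `[x, Y] ≤ Y ∩ M' = 1` (`Tau1`).) -/
def NC2 : Prop :=
  ∀ {G : Type u} [Group G] [Finite G], Cfsg.IsMinSimpleOddOrder G →
  ∀ (M K U Mstar : Subgroup G), IsCoatom M → Cfsg.IsSigmaDecomposition M K U → K ≠ ⊥ →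
    IsCoatom Mstar →
    K = Cfsg.sigmaCore Mstar ⊓ Subgroup.centralizer
      ((Cfsg.sigmaCore M ⊓ Subgroup.centralizer (K : Set G) : Subgroup G) : Set G) →
    Cfsg.IsPiHallOf (Cfsg.kappa Mstar)
      (Cfsg.sigmaCore M ⊓ Subgroup.centralizer (K : Set G)) Mstar →
    (∀ X : Subgroup G, X ≤ Cfsg.sigmaCore M ⊓ Subgroup.centralizer (K : Set G) →
      (Nat.card X).Prime → Subgroup.centralizer (X : Set G) ≤ M) →
  ∀ Y : Subgroup G, Y ≤ K → (Nat.card Y).Prime →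
    Subgroup.normalizer (Y : Set G) ≤ Subgroup.centralizer (Y : Set G)

/-- RANK2: `Y` of prime order `q` with `N_G(Y) ≤ L` and `q ∉ σ(L)`: `q ∈ τ₂(L)`.
(Rank `≤ 2` by `Helper90.BG143R2.main`.  If the `q`-rank of `L` is `1`, a Sylow `q`-subgroup
`Q ⊇ Y` of `L` is cyclic (`Helper9.BG10c.isCyclic_of_pRankLE_one`), `Y` is its only subgroup of
order `q`, `N_G(Q) ≤ N_G(Y) ≤ L`, so `q ∈ σ(L)`.) -/
def Rank2 : Prop :=
  ∀ {G : Type u} [Group G] [Finite G], Cfsg.IsMinSimpleOddOrder G →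
  ∀ (L Y : Subgroup G) (q : ℕ), IsCoatom L → q.Prime → Nat.card Y = q →
    Subgroup.normalizer (Y : Set G) ≤ L → q ∉ Cfsg.sigma L → q ∈ Cfsg.tau2 L

/-- ABNORM: if the Sylow `r`-subgroups of `G` are abelian, `A` is elementary abelian of order
`r²` and `t ∈ N_G(A)`, then `N_G(A)` normalizes `C_A(t)`.  (The second half of
`Helper9.S53CASEAB.main`: `N_G(A)' ≤ C_G(A)` by `Helper9.Rank2Aut.conj_derived` and
`S53CASEAB.rpart_centralizes`.) -/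
def AbNorm : Prop :=
  ∀ {G : Type u} [Group G] [Finite G], Cfsg.IsMinSimpleOddOrder G →
  ∀ (A : Subgroup G) (t : G) (r : ℕ), r.Prime →
    (∃ S : Sylow r G, IsMulCommutative (S : Subgroup G)) →
    Cfsg.IsElementaryAbelian r A → Nat.card A = r ^ 2 →
    t ∈ Subgroup.normalizer (A : Set G) →
    Subgroup.normalizer (A : Set G) ≤
      Subgroup.normalizer ((A ⊓ Subgroup.centralizer ({t} : Set G) : Subgroup G) : Set G)

/-- TAIL: the common endgame.  `Y` of order `q ∈ τ₂(L)`, `N_G(Y) ≤ L`, `C_G(Y) ≤ M₀ ≠ L`,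
`t` of prime order `≠ q` outside `σ(L)` centralizing `Y`, and `t` centralizes no elementary
abelian subgroup of order `q²` containing `Y`: contradiction. -/
def Tail : Prop :=
  ∀ {G : Type u} [Group G] [Finite G], Cfsg.IsMinSimpleOddOrder G →
  ∀ (M₀ L Y : Subgroup G) (t : G) (q : ℕ), IsCoatom M₀ → IsCoatom L → L ≠ M₀ →
    Nat.card Y = q → Subgroup.centralizer (Y : Set G) ≤ M₀ →
    Subgroup.normalizer (Y : Set G) ≤ L → q ∈ Cfsg.tau2 L →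
    (orderOf t).Prime → orderOf t ≠ q → orderOf t ∉ Cfsg.sigma L →
    (∀ y ∈ Y, t * y = y * t) →
    (∀ A : Subgroup G, Cfsg.IsElementaryAbelian q A → Nat.card A = q ^ 2 → Y ≤ A →
      ¬ (∀ a ∈ A, t * a = a * t)) → False

/-- UQ1: `M` is the only maximal subgroup over `C_G(X)`, `X ≤ K*` of prime order. -/
def Uq1 : Prop :=
  ∀ {G : Type u} [Group G] [Finite G], Cfsg.IsMinSimpleOddOrder G →
  ∀ (M K U Mstar : Subgroup G), IsCoatom M → Cfsg.IsSigmaDecomposition M K U → K ≠ ⊥ →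
    IsCoatom Mstar →
    K = Cfsg.sigmaCore Mstar ⊓ Subgroup.centralizer
      ((Cfsg.sigmaCore M ⊓ Subgroup.centralizer (K : Set G) : Subgroup G) : Set G) →
    Cfsg.IsPiHallOf (Cfsg.kappa Mstar)
      (Cfsg.sigmaCore M ⊓ Subgroup.centralizer (K : Set G)) Mstar →
  ∀ X : Subgroup G, X ≤ Cfsg.sigmaCore M ⊓ Subgroup.centralizer (K : Set G) →
    (Nat.card X).Prime → Subgroup.centralizer (X : Set G) ≤ M →
    ∀ L : Subgroup G, IsCoatom L → Subgroup.centralizer (X : Set G) ≤ L → L = M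

/-- UQ2: `M*` is the only maximal subgroup over `C_G(Y)`, `Y ≤ K` of prime order. -/
def Uq2 : Prop :=
  ∀ {G : Type u} [Group G] [Finite G], Cfsg.IsMinSimpleOddOrder G →
  ∀ (M K U Mstar : Subgroup G), IsCoatom M → Cfsg.IsSigmaDecomposition M K U → K ≠ ⊥ →
    IsCoatom Mstar →
    K = Cfsg.sigmaCore Mstar ⊓ Subgroup.centralizer
      ((Cfsg.sigmaCore M ⊓ Subgroup.centralizer (K : Set G) : Subgroup G) : Set G) →
    Cfsg.IsPiHallOf (Cfsg.kappa Mstar)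
      (Cfsg.sigmaCore M ⊓ Subgroup.centralizer (K : Set G)) Mstar →
    (∀ X : Subgroup G, X ≤ Cfsg.sigmaCore M ⊓ Subgroup.centralizer (K : Set G) →
      (Nat.card X).Prime → Subgroup.centralizer (X : Set G) ≤ M) →
  ∀ Y : Subgroup G, Y ≤ K → (Nat.card Y).Prime → Subgroup.centralizer (Y : Set G) ≤ Mstar →
    ∀ L : Subgroup G, IsCoatom L → Subgroup.centralizer (Y : Set G) ≤ L → L = Mstar

end Cfsg.Agent.Lib.Helper63.S67Stmt
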