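import Mathlib
import Cfsg.Agent.Lib.Helper44.TPStmt

/-!
# S5973 piece SQNEGTS (second seat, helper63)

`q ≡ 3 (4)`, `x` an isometry of the plus form with `x^2 = -1`, `W` an invariant totally singular
subspace of finrank `< d`: then `W ⊔ span {v, x v}` (with `v` from `TsExt`) is invariant, totally
singular, of finrank `+ 2`.
-/

set_option autoImplicit false

universe u

open scoped Matrix

namespace Cfsg.Agent.Lib.Helper63.TPSQNEGTS

open Cfsg.Agent.Lib.Helper44.TPStmt

/-- the polar form of the plus form, explicitly -/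
theorem polar_eq {F : Type u} [Field F] (d : ℕ) (u v : J d → F) :
    QuadraticMap.polar (Cfsg.quadFormPlus d F) u v =
      ∑ i : Fin d, (u (.inl i) * v (.inr i) + v (.inl i) * u (.inr i)) := by
  unfold QuadraticMap.polar Cfsg.quadFormPlus
  rw [← Finset.sum_sub_distrib, ← Finset.sum_sub_distrib]
  refine Finset.sum_congr rfl fun i _ => ?_
  simp only [Pi.add_apply]
  ring

theorem polar_neg_right {F : Type u} [Field F] (d : ℕ) (u v : J d → F) :
    QuadraticMap.polar (Cfsg.quadFormPlus d F) u (-v) =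
      - QuadraticMap.polar (Cfsg.quadFormPlus d F) u v := by
  simp only [polar_eq, Pi.neg_apply]
  rw [← Finset.sum_neg_distrib]
  refine Finset.sum_congr rfl fun i _ => ?_
  ring

theorem Q_expand {F : Type u} [Field F] (d : ℕ) (w v v' : J d → F) (a b : F) :
    Cfsg.quadFormPlus d F (w + (a • v + b • v')) =
      Cfsg.quadFormPlus d F w + a * a * Cfsg.quadFormPlus d F v
        + b * b * Cfsg.quadFormPlus d F v'
        + a * QuadraticMap.polar (Cfsg.quadFormPlus d F) w v
        + b * QuadraticMap.polar (Cfsg.quadFormPlus d F) w v'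
        + a * b * QuadraticMap.polar (Cfsg.quadFormPlus d F) v v' := by
  simp only [polar_eq]
  unfold Cfsg.quadFormPlus
  simp only [Pi.add_apply, Pi.smul_apply, smul_eq_mul, Finset.mul_sum,
    ← Finset.sum_add_distrib]
  refine Finset.sum_congr rfl fun i _ => ?_
  ring

theorem main (hExt : TsExt.{u}) : SqNegTS.{u} := by
  intro F _ _ hq d x hx hx2 W hW hTS hlt
  classical
  have hiso : ∀ u : J d → F, Cfsg.quadFormPlus d F ((x : Matrix (J d) (J d) F) *ᵥ u) =
      Cfsg.quadFormPlus d F u := fun u => hx u u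
  have hMM : (x : Matrix (J d) (J d) F) * (x : Matrix (J d) (J d) F) =
      (-1 : F) • (1 : Matrix (J d) (J d) F) := by
    rw [← hx2, pow_two, Units.val_mul]
  have hXX : ∀ u : J d → F, (x : Matrix (J d) (J d) F) *ᵥ ((x : Matrix (J d) (J d) F) *ᵥ u)
      = -u := by
    intro u
    rw [Matrix.mulVec_mulVec, hMM, Matrix.smul_mulVec, Matrix.one_mulVec, neg_one_smul]
  have hWM : ∀ w ∈ W, (x : Matrix (J d) (J d) F) *ᵥ w ∈ W := by
    intro w hw
    have := hW (Submodule.mem_map_of_mem hw)
    rwa [Matrix.toLin'_apply] at this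
  have hchar : ringChar F ≠ 2 := by
    intro h
    have := FiniteField.even_card_iff_char_two.mp h
    omega
  have h2 : (2 : F) ≠ 0 := Ring.two_ne_zero hchar
  have hns : ¬ IsSquare (-1 : F) := by
    rw [FiniteField.isSquare_neg_one_iff]
    exact fun h => h hq
  obtain ⟨v, hvW, hQv, hBv⟩ := hExt F d W hTS hlt
  have hBiso : ∀ a b : J d → F,
      QuadraticMap.polar (Cfsg.quadFormPlus d F) ((x : Matrix (J d) (J d) F) *ᵥ a)
        ((x : Matrix (J d) (J d) F) *ᵥ b) = QuadraticMap.polar (Cfsg.quadFormPlus d F) a b := by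
    intro a b
    unfold QuadraticMap.polar
    rw [← Matrix.mulVec_add, hiso, hiso, hiso]
  have hQXv : Cfsg.quadFormPlus d F ((x : Matrix (J d) (J d) F) *ᵥ v) = 0 := by
    rw [hiso]; exact hQv
  have hBvXv : QuadraticMap.polar (Cfsg.quadFormPlus d F) v
      ((x : Matrix (J d) (J d) F) *ᵥ v) = 0 := by
    have h1 := hBiso v ((x : Matrix (J d) (J d) F) *ᵥ v)
    rw [hXX, polar_neg_right, QuadraticMap.polar_comm] at h1
    have h3 : (2 : F) * QuadraticMap.polar (Cfsg.quadFormPlus d F) v
        ((x : Matrix (J d) (J d) F) *ᵥ v) = 0 := by linear_combination -h1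
    exact (mul_eq_zero.mp h3).resolve_left h2
  have hBwXv : ∀ w ∈ W, QuadraticMap.polar (Cfsg.quadFormPlus d F) w
      ((x : Matrix (J d) (J d) F) *ᵥ v) = 0 := by
    intro w hw
    have h1 := hBiso w ((x : Matrix (J d) (J d) F) *ᵥ v)
    rw [hXX, polar_neg_right, hBv _ (hWM w hw)] at h1
    rw [← h1]; simp
  -- independence modulo `W`
  have hind : ∀ a b : F, a • v + b • ((x : Matrix (J d) (J d) F) *ᵥ v) ∈ W → a = 0 ∧ b = 0 := by
    intro a b hab
    have h1 := hWM _ hab
    rw [Matrix.mulVec_add, Matrix.mulVec_smul, Matrix.mulVec_smul, hXX] at h1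
    have h3 : (a * a + b * b) • v ∈ W := by
      have h4 := W.sub_mem (W.smul_mem a hab) (W.smul_mem b h1)
      have h5 : a • (a • v + b • ((x : Matrix (J d) (J d) F) *ᵥ v)) -
          b • (a • ((x : Matrix (J d) (J d) F) *ᵥ v) + b • -v) = (a * a + b * b) • v := by
        simp only [smul_add, smul_smul, smul_neg, add_smul]
        rw [mul_comm b a]
        abel
      rwa [h5] at h4
    have h6 : a * a + b * b = 0 := by
      by_contra hne
      apply hvW
      have := W.smul_mem (a * a + b * b)⁻¹ h3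
      rwa [smul_smul, inv_mul_cancel₀ hne, one_smul] at this
    have hb : b = 0 := by
      by_contra hb
      apply hns
      refine ⟨a / b, ?_⟩
      field_simp
      linear_combination -h6
    subst hb
    refine ⟨?_, rfl⟩
    simpa using h6
  refine ⟨W ⊔ Submodule.span F {v, (x : Matrix (J d) (J d) F) *ᵥ v}, ?_, ?_, ?_⟩
  · intro y hy
    obtain ⟨y0, hy0, rfl⟩ := Submodule.mem_map.mp hy
    obtain ⟨w, hw, s, hs, rfl⟩ := Submodule.mem_sup.mp hy0
    obtain ⟨a, b, rfl⟩ := Submodule.mem_span_pair.mp hs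
    rw [map_add]
    refine Submodule.add_mem _ (Submodule.mem_sup_left ?_) (Submodule.mem_sup_right ?_)
    · rw [Matrix.toLin'_apply]; exact hWM w hw
    · rw [Matrix.toLin'_apply, Matrix.mulVec_add, Matrix.mulVec_smul, Matrix.mulVec_smul, hXX]
      refine Submodule.mem_span_pair.mpr ⟨-b, a, ?_⟩
      simp only [neg_smul, smul_neg]
      abel
  · intro y hy
    obtain ⟨w, hw, s, hs, rfl⟩ := Submodule.mem_sup.mp hy
    obtain ⟨a, b, rfl⟩ := Submodule.mem_span_pair.mp hs
    rw [Q_expand, hTS w hw, hQv, hQXv, hBv w hw, hBwXv w hw, hBvXv]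
    ring
  · have hinf : W ⊓ Submodule.span F {v, (x : Matrix (J d) (J d) F) *ᵥ v} = ⊥ := by
      rw [Submodule.eq_bot_iff]
      rintro y ⟨hyW, hyS⟩
      obtain ⟨a, b, rfl⟩ := Submodule.mem_span_pair.mp hyS
      obtain ⟨rfl, rfl⟩ := hind a b hyW
      simp
    have hli : LinearIndependent F ![v, (x : Matrix (J d) (J d) F) *ᵥ v] :=
      LinearIndependent.pair_iff.mpr (fun s t hst => hind s t (hst ▸ W.zero_mem))
    have hS : Module.finrank F
        ↥(Submodule.span F {v, (x : Matrix (J d) (J d) F) *ᵥ v}) = 2 := by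
      have h := finrank_span_eq_card hli
      rw [Matrix.range_cons_cons_empty] at h
      rw [h]; simp
    have h := Submodule.finrank_sup_add_finrank_inf_eq W
      (Submodule.span F {v, (x : Matrix (J d) (J d) F) *ᵥ v})
    rw [hinf, finrank_bot, hS] at h
    omega

end Cfsg.Agent.Lib.Helper63.TPSQNEGTS
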