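import Mathlib
import Cfsg.Prelude.Def_LieRecognition
import Cfsg.Agent.Lib.Helper63.GraphExt

/-!
# The 2-groups of type A as matrix groups, and their recognition from coordinates

`gl φ x y` is the matrix with rows `(1,0,0)`, `(x,1,0)`, `(y, φ x, 1)`; these matrices form the
group `Cfsg.suzukiTypeA F φ`.  `iso_of_coord` recognises this group from an additive
"`x`-coordinate" `a : P → F`, an embedding `γ : F → P` of the kernel of `a`, and the squaring
map `g * g = γ (a g * φ (a g))`.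
-/

set_option autoImplicit false

namespace Cfsg.Agent.Lib.Helper63.TypeAModel

variable {F : Type*} [Field F] (φ : F →+* F)

/-- The matrix with rows `(1,0,0)`, `(x,1,0)`, `(y, φ x, 1)`. -/
def mat (x y : F) : Matrix (Fin 3) (Fin 3) F := !![1, 0, 0; x, 1, 0; y, φ x, 1]

theorem mat_mul (x y x' y' : F) :
    mat φ x y * mat φ x' y' = mat φ (x + x') (y + y' + φ x * x') := by
  unfold mat
  ext i j
  fin_cases i <;> fin_cases j <;> simp [Matrix.mul_apply, Fin.sum_univ_three]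
  ring

theorem mat_zero : mat φ 0 0 = 1 := by
  unfold mat
  ext i j
  fin_cases i <;> fin_cases j <;> simp

/-- The matrix as an element of the general linear group. -/
def gl (x y : F) : GL (Fin 3) F :=
  ⟨mat φ x y, mat φ (-x) (-y + φ x * x), by
    rw [mat_mul, ← mat_zero φ]
    congr 1 <;> ring, by
    rw [mat_mul, ← mat_zero φ, map_neg]
    congr 1 <;> ring⟩

theorem gl_mul (x y x' y' : F) :
    gl φ x y * gl φ x' y' = gl φ (x + x') (y + y' + φ x * x') :=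
  Units.ext (mat_mul φ x y x' y')

theorem gl_zero : gl φ 0 0 = 1 := Units.ext (mat_zero φ)

theorem gl_inj {x y x' y' : F} (h : gl φ x y = gl φ x' y') : x = x' ∧ y = y' := by
  have h2 : mat φ x y = mat φ x' y' := congrArg Units.val h
  have h10 := congrFun (congrFun h2 1) 0
  have h20 := congrFun (congrFun h2 2) 0
  simp [mat] at h10 h20
  exact ⟨h10, h20⟩

theorem gl_inv (x y : F) : (gl φ x y)⁻¹ = gl φ (-x) (-y + φ x * x) := by
  apply inv_eq_of_mul_eq_one_right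
  rw [gl_mul, ← gl_zero φ]
  congr 1 <;> ring

/-- The set of all `gl φ x y` as a subgroup. -/
def sub : Subgroup (GL (Fin 3) F) where
  carrier := {g | ∃ x y, g = gl φ x y}
  mul_mem' := by
    rintro _ _ ⟨x, y, rfl⟩ ⟨x', y', rfl⟩
    exact ⟨_, _, gl_mul φ x y x' y'⟩
  one_mem' := ⟨0, 0, (gl_zero φ).symm⟩
  inv_mem' := by
    rintro _ ⟨x, y, rfl⟩
    exact ⟨_, _, gl_inv φ x y⟩

theorem mem_sub (g : GL (Fin 3) F) : g ∈ sub φ ↔ ∃ x y, g = gl φ x y := Iff.rfl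

theorem typeA_eq : Cfsg.suzukiTypeA F φ = sub φ := by
  have h : {g : GL (Fin 3) F | ∃ x y : F,
      (g : Matrix (Fin 3) (Fin 3) F) = !![1, 0, 0; x, 1, 0; y, φ x, 1]} = (sub φ : Set _) := by
    ext g
    constructor
    · rintro ⟨x, y, h⟩
      exact ⟨x, y, Units.ext h⟩
    · rintro ⟨x, y, rfl⟩
      exact ⟨x, y, rfl⟩
  unfold Cfsg.suzukiTypeA
  rw [h, Subgroup.closure_eq]

/-- Recognition of the group of type A from coordinates. -/
theorem iso_of_coord {P : Type*} [Group P] [Finite P] [Finite F] [CharP F 2]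
    (a : P → F) (γ : F → P)
    (ha : ∀ g h, a (g * h) = a g + a h) (hasurj : Function.Surjective a)
    (hγ : ∀ w w', γ (w + w') = γ w * γ w') (hγinj : Function.Injective γ)
    (hker : ∀ g, a g = 0 ↔ ∃ w, γ w = g)
    (hsq : ∀ g, g * g = γ (a g * φ (a g))) :
    Nonempty (P ≃* Cfsg.suzukiTypeA F φ) := by
  classical
  have a1 : a 1 = 0 := by
    have h := ha 1 1
    rw [mul_one] at h
    exact (left_eq_add.1 h)
  have ainv : ∀ g, a g⁻¹ = -a g := by
    intro g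
    have h := ha g⁻¹ g
    rw [inv_mul_cancel, a1] at h
    exact eq_neg_of_add_eq_zero_left h.symm
  have γ0 : γ 0 = 1 := by
    have h := hγ 0 0
    rw [add_zero] at h
    exact (left_eq_mul.1 h)
  have γneg : ∀ w, γ (-w) = (γ w)⁻¹ := by
    intro w
    have h := hγ (-w) w
    rw [neg_add_cancel, γ0] at h
    exact eq_inv_of_mul_eq_one_left h.symm
  let Q : Subgroup (P × GL (Fin 3) F) :=
    { carrier := {t | ∃ y, t.2 = gl φ (a t.1) y}
      mul_mem' := by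
        rintro t t' ⟨y, hy⟩ ⟨y', hy'⟩
        refine ⟨y + y' + φ (a t.1) * a t'.1, ?_⟩
        rw [Prod.snd_mul, Prod.fst_mul, hy, hy', gl_mul, ha]
      one_mem' := ⟨0, by rw [Prod.snd_one, Prod.fst_one, a1, gl_zero]⟩
      inv_mem' := by
        rintro t ⟨y, hy⟩
        refine ⟨-y + φ (a t.1) * a t.1, ?_⟩
        rw [Prod.snd_inv, Prod.fst_inv, hy, gl_inv, ainv] }
  let C : Subgroup (P × GL (Fin 3) F) :=
    { carrier := {t | a t.1 = 0 ∧ ∃ y, t.2 = gl φ 0 y}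
      mul_mem' := by
        rintro t t' ⟨h1, y, hy⟩ ⟨h1', y', hy'⟩
        refine ⟨by rw [Prod.fst_mul, ha, h1, h1', add_zero], y + y' + φ 0 * 0, ?_⟩
        rw [Prod.snd_mul, hy, hy', gl_mul, add_zero]
      one_mem' := ⟨by rw [Prod.fst_one, a1], 0, by rw [Prod.snd_one, gl_zero]⟩
      inv_mem' := by
        rintro t ⟨h1, y, hy⟩
        refine ⟨by rw [Prod.fst_inv, ainv, h1, neg_zero], -y + φ 0 * 0, ?_⟩
        rw [Prod.snd_inv, hy, gl_inv, neg_zero] }
  let Γ₀ : Subgroup (P × GL (Fin 3) F) :=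
    { carrier := {t | ∃ w, t.1 = γ w ∧ t.2 = gl φ 0 w}
      mul_mem' := by
        rintro t t' ⟨w, h1, h2⟩ ⟨w', h1', h2'⟩
        refine ⟨w + w', by rw [Prod.fst_mul, h1, h1', hγ], ?_⟩
        rw [Prod.snd_mul, h2, h2', gl_mul, add_zero, map_zero, zero_mul, add_zero]
      one_mem' := ⟨0, by rw [Prod.fst_one, γ0], by rw [Prod.snd_one, gl_zero]⟩
      inv_mem' := by
        rintro t ⟨w, h1, h2⟩
        refine ⟨-w, by rw [Prod.fst_inv, h1, γneg], ?_⟩
        rw [Prod.snd_inv, h2, gl_inv, neg_zero, map_zero, zero_mul, add_zero] }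
  have h0 : Γ₀ ≤ Q := by
    rintro t ⟨w, h1, h2⟩
    refine ⟨w, ?_⟩
    have h3 : a t.1 = 0 := (hker t.1).2 ⟨w, h1.symm⟩
    rw [h3]
    exact h2
  have hsq' : ∀ t ∈ Q, t * t ∈ Γ₀ := by
    rintro t ⟨y, hy⟩
    refine ⟨a t.1 * φ (a t.1), by rw [Prod.fst_mul, hsq], ?_⟩
    rw [Prod.snd_mul, hy, gl_mul, CharTwo.add_self_eq_zero, CharTwo.add_self_eq_zero, zero_add,
      mul_comm]
  obtain ⟨Γ, hΓ0, hΓQ, hΓC, hΓall⟩ := GraphExt.exists_graph Γ₀ Q C h0 hsq'
  have hA : ∀ g : P, ∃ m, (g, m) ∈ Γ := by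
    intro g
    have ht : (g, gl φ (a g) 0) ∈ Q := ⟨0, rfl⟩
    obtain ⟨c, ⟨hc1, y, hc2⟩, h, hh, e⟩ := hΓall _ ht
    obtain ⟨w, hw⟩ := (hker c.1).1 hc1
    refine ⟨gl φ 0 w * h.2, ?_⟩
    have h1 : ((γ w, gl φ 0 w) : P × GL (Fin 3) F) ∈ Γ := hΓ0 ⟨w, rfl, rfl⟩
    have h2 := Γ.mul_mem h1 hh
    have e1 : g = c.1 * h.1 := congrArg Prod.fst e
    have e2 : ((g, gl φ 0 w * h.2) : P × GL (Fin 3) F) = (γ w, gl φ 0 w) * h := by
      apply Prod.ext
      · show g = γ w * h.1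
        rw [hw, e1]
      · rfl
    rw [e2]
    exact h2
  have hB : ∀ g m m', (g, m) ∈ Γ → (g, m') ∈ Γ → m = m' := by
    intro g m m' h1 h2
    have h3 : (((1 : P), m⁻¹ * m') : P × GL (Fin 3) F) ∈ Γ := by
      have h := Γ.mul_mem (Γ.inv_mem h1) h2
      have e : ((g, m) : P × GL (Fin 3) F)⁻¹ * (g, m') = (1, m⁻¹ * m') := by
        apply Prod.ext
        · show g⁻¹ * g = 1
          rw [inv_mul_cancel]
        · rfl
      rwa [e] at h
    obtain ⟨y, hy⟩ := hΓQ h3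
    have hy' : m⁻¹ * m' = gl φ 0 y := by
      have : m⁻¹ * m' = gl φ (a 1) y := hy
      rwa [a1] at this
    have h4 : (((1 : P), m⁻¹ * m') : P × GL (Fin 3) F) ∈ C := ⟨a1, y, hy'⟩
    obtain ⟨w, hw1, hw2⟩ := hΓC ⟨h3, h4⟩
    have hw1' : γ w = 1 := hw1.symm
    have hw0 : w = 0 := hγinj (hw1'.trans γ0.symm)
    have hw2' : m⁻¹ * m' = gl φ 0 w := hw2
    rw [hw0, gl_zero] at hw2'
    exact inv_mul_eq_one.1 hw2'
  choose f hf using hA
  have hfmul : ∀ g h, f (g * h) = f g * f h := fun g h =>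
    hB _ _ _ (hf (g * h)) (Γ.mul_mem (hf g) (hf h))
  let fh : P →* GL (Fin 3) F := MonoidHom.mk' f hfmul
  have hfinj : Function.Injective fh := by
    rw [injective_iff_map_eq_one]
    intro g hg
    have hg' : f g = 1 := hg
    have h1 : ((g, (1 : GL (Fin 3) F)) : P × GL (Fin 3) F) ∈ Γ := by
      rw [← hg']
      exact hf g
    obtain ⟨y, hy⟩ := hΓQ h1
    have hy' : (1 : GL (Fin 3) F) = gl φ (a g) y := hy
    have h5 := gl_inj φ (hy'.symm.trans (gl_zero φ).symm)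
    have h2 : ((g, (1 : GL (Fin 3) F)) : P × GL (Fin 3) F) ∈ C := ⟨h5.1, 0, (gl_zero φ).symm⟩
    obtain ⟨w, hw1, hw2⟩ := hΓC ⟨h1, h2⟩
    have hw2' : (1 : GL (Fin 3) F) = gl φ 0 w := hw2
    have hw0 : w = 0 := (gl_inj φ (hw2'.symm.trans (gl_zero φ).symm)).2
    have hw1' : g = γ w := hw1
    rw [hw1', hw0, γ0]
  have hrange : fh.range = Cfsg.suzukiTypeA F φ := by
    rw [typeA_eq]
    ext m
    constructor
    · rintro ⟨g, rfl⟩
      obtain ⟨y, hy⟩ := hΓQ (hf g)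
      exact ⟨a g, y, hy⟩
    · rintro ⟨x, y, rfl⟩
      obtain ⟨g, rfl⟩ := hasurj x
      obtain ⟨y', hy'⟩ := hΓQ (hf g)
      have hy'' : f g = gl φ (a g) y' := hy'
      have h1 : f (γ (y - y')) = gl φ 0 (y - y') := hB _ _ _ (hf _) (hΓ0 ⟨_, rfl, rfl⟩)
      refine ⟨g * γ (y - y'), ?_⟩
      show f (g * γ (y - y')) = _
      rw [hfmul, h1, hy'', gl_mul]
      congr 1 <;> ring
  exact ⟨(MonoidHom.ofInjective hfinj).trans (MulEquiv.subgroupCongr hrange)⟩

end Cfsg.Agent.Lib.Helper63.TypeAModel
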