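import Mathlib
import Cfsg.Agent.Lib.Helper63.TypeAModel
import Cfsg.Agent.Lib.Helper63.QuadChar

/-!
# Recognition of the 2-groups of type A from a multiplicative squaring map

A finite non-abelian group `P` with an additive coordinate `a : P → F` onto a finite field,
whose kernel is the central image of an additive embedding `γ : F → P`, and with squaring map
`g * g = γ (N (a g))` for an injective multiplicative `N : F → F`, is the group of type A
attached to a field automorphism `φ ≠ 1` of odd order.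
-/

set_option autoImplicit false

namespace Cfsg.Agent.Lib.Helper63.TypeARecog

open Cfsg.Agent.Lib.Helper63

theorem recog {P : Type*} [Group P] [Finite P] {F : Type} [Field F] [Fintype F]
    (a : P → F) (γ : F → P) (N : F → F)
    (ha : ∀ g h, a (g * h) = a g + a h) (hasurj : Function.Surjective a)
    (hγ : ∀ w w', γ (w + w') = γ w * γ w') (hγinj : Function.Injective γ)
    (hker : ∀ g, a g = 0 ↔ ∃ w, γ w = g)
    (hcen : ∀ w g, γ w * g = g * γ w)
    (hNmul : ∀ x y, N (x * y) = N x * N y) (hNinj : Function.Injective N)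
    (hsq : ∀ g, g * g = γ (N (a g)))
    (hnc : ∃ g h : P, g * h ≠ h * g) :
    ∃ φ : F ≃+* F, φ ≠ RingEquiv.refl F ∧ Odd (orderOf φ) ∧
      Nonempty (P ≃* Cfsg.suzukiTypeA F (φ : F →+* F)) := by
  classical
  have γ0 : γ 0 = 1 := by
    have h := hγ 0 0
    rw [add_zero] at h
    exact (left_eq_mul.1 h)
  have N0 : N 0 = 0 := by
    by_contra hne
    have h1 : ∀ x, N x = 1 := by
      intro x
      have h := hNmul x 0
      rw [mul_zero] at h
      exact (mul_eq_right₀ hne).1 h.symm
    exact one_ne_zero (hNinj ((h1 1).trans (h1 0).symm))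
  have hww : ∀ w : F, w + w = 0 := by
    intro w
    apply hγinj
    have h1 : a (γ w) = 0 := (hker _).2 ⟨w, rfl⟩
    rw [hγ, hsq, h1, N0]
  have h20 : (2 : F) = 0 := by
    have := hww 1
    rwa [one_add_one_eq_two] at this
  have _char : CharP F 2 := CharTwo.of_one_ne_zero_of_two_eq_zero one_ne_zero h20
  have γinv : ∀ w, (γ w)⁻¹ = γ w := by
    intro w
    apply inv_eq_of_mul_eq_one_right
    rw [← hγ, hww, γ0]
  have hcomm : ∀ g h, h * g = g * h * γ (N (a g + a h) + N (a g) + N (a h)) := by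
    intro g h
    have h1 : (g * h) * (g * h) = γ (N (a g + a h)) := by rw [hsq, ha]
    have h2 : g⁻¹ = g * γ (N (a g)) := by
      apply inv_eq_of_mul_eq_one_right
      rw [← mul_assoc, hsq, ← hγ, hww, γ0]
    have h3 : h⁻¹ = γ (N (a h)) * h := by
      apply inv_eq_of_mul_eq_one_left
      rw [mul_assoc, hsq, ← hγ, hww, γ0]
    have h4 : h * g = g⁻¹ * ((g * h) * (g * h)) * h⁻¹ := by group
    rw [h4, h1, h2, h3, hγ, hγ]
    have c1 := hcen (N (a g)) h
    have c2 := hcen (N (a g + a h)) h
    have c3 := hcen (N (a h)) h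
    calc g * γ (N (a g)) * γ (N (a g + a h)) * (γ (N (a h)) * h)
        = g * γ (N (a g)) * γ (N (a g + a h)) * (h * γ (N (a h))) := by rw [c3]
      _ = g * γ (N (a g)) * (γ (N (a g + a h)) * h) * γ (N (a h)) := by group
      _ = g * γ (N (a g)) * (h * γ (N (a g + a h))) * γ (N (a h)) := by rw [c2]
      _ = g * (γ (N (a g)) * h) * γ (N (a g + a h)) * γ (N (a h)) := by group
      _ = g * (h * γ (N (a g))) * γ (N (a g + a h)) * γ (N (a h)) := by rw [c1]
      _ = g * h * (γ (N (a g)) * γ (N (a g + a h))) * γ (N (a h)) := by group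
      _ = g * h * (γ (N (a g + a h)) * γ (N (a g))) * γ (N (a h)) := by
          rw [← hγ, ← hγ, add_comm]
      _ = g * h * (γ (N (a g + a h)) * γ (N (a g)) * γ (N (a h))) := by group
  let B₀ : F → F → F := fun x y => N (x + y) + N x + N y
  have hB₀ : ∀ x y, B₀ x y = N (x + y) + N x + N y := fun x y => rfl
  have hsymm : ∀ x y, B₀ x y = B₀ y x := by
    intro x y
    rw [hB₀, hB₀, add_comm x y]; ring
  have hcomm' : ∀ g h, h * g = g * h * γ (B₀ (a g) (a h)) := hcomm
  have haddl : ∀ x x' y, B₀ (x + x') y = B₀ x y + B₀ x' y := by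
    intro x x' y
    obtain ⟨g, rfl⟩ := hasurj x
    obtain ⟨g', rfl⟩ := hasurj x'
    obtain ⟨h, rfl⟩ := hasurj y
    apply hγinj
    have e1 : h * (g * g') = g * g' * h * γ (B₀ (a g + a g') (a h)) := by
      rw [hcomm' (g * g') h, ha]
    have e2 : h * (g * g') = g * g' * h * (γ (B₀ (a g) (a h)) * γ (B₀ (a g') (a h))) := by
      calc h * (g * g') = (h * g) * g' := by group
        _ = g * h * γ (B₀ (a g) (a h)) * g' := by rw [hcomm' g h]
        _ = g * (h * g') * γ (B₀ (a g) (a h)) := by
            rw [mul_assoc (g * h), hcen, ← mul_assoc, mul_assoc g h g']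
        _ = g * (g' * h * γ (B₀ (a g') (a h))) * γ (B₀ (a g) (a h)) := by rw [hcomm' g' h]
        _ = g * g' * h * (γ (B₀ (a g') (a h)) * γ (B₀ (a g) (a h))) := by group
        _ = g * g' * h * (γ (B₀ (a g) (a h)) * γ (B₀ (a g') (a h))) := by
            rw [← hγ, ← hγ, add_comm]
    have e3 : γ (B₀ (a g) (a h) + B₀ (a g') (a h)) = γ (B₀ (a g) (a h)) * γ (B₀ (a g') (a h)) :=
      hγ _ _
    rw [e3]
    exact mul_left_cancel (e1.symm.trans e2)
  have haddr : ∀ x y y', B₀ x (y + y') = B₀ x y + B₀ x y' := by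
    intro x y y'
    rw [hsymm x (y + y'), haddl, hsymm y x, hsymm y' x]
  let B : F →+ F →+ F :=
    AddMonoidHom.mk' (fun x => AddMonoidHom.mk' (fun y => B₀ x y) (haddr x)) (by
      intro x x'
      ext y
      exact haddl x x' y)
  have hB : ∀ x y, B x y = N (x + y) + N x + N y := fun x y => rfl
  have hB0 : ∃ x y, B x y ≠ 0 := by
    obtain ⟨g, h, hgh⟩ := hnc
    refine ⟨a g, a h, ?_⟩
    intro h0
    apply hgh
    have h1 := hcomm' g h
    have h0' : B₀ (a g) (a h) = 0 := h0
    rw [h0', γ0, mul_one] at h1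
    exact h1.symm
  obtain ⟨σ, τ, hστ, hN⟩ := QuadChar.quad_char N hNmul B hB hB0
  let φ : F ≃+* F := σ.symm.trans τ
  have hφ : ∀ u, φ (σ u) = τ u := by
    intro u
    show τ (σ.symm (σ u)) = τ u
    rw [RingEquiv.symm_apply_apply]
  refine ⟨φ, ?_, ?_, ?_⟩
  · intro h
    apply hστ
    ext u
    have h1 := hφ u
    rw [h] at h1
    exact h1
  · apply QuadChar.odd_order
    intro x y hxy
    have hx : x * φ x = N (σ.symm x) := by
      rw [hN, ← hφ, RingEquiv.apply_symm_apply]
    have hy : y * φ y = N (σ.symm y) := by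
      rw [hN, ← hφ, RingEquiv.apply_symm_apply]
    rw [hx, hy] at hxy
    exact σ.symm.injective (hNinj hxy)
  · refine TypeAModel.iso_of_coord (φ : F →+* F) (fun g => σ (a g)) γ ?_ ?_ hγ hγinj ?_ ?_
    · intro g h
      show σ (a (g * h)) = σ (a g) + σ (a h)
      rw [ha, map_add]
    · intro x
      obtain ⟨g, hg⟩ := hasurj (σ.symm x)
      exact ⟨g, by show σ (a g) = x; rw [hg, RingEquiv.apply_symm_apply]⟩
    · intro g
      rw [← hker]
      show σ (a g) = 0 ↔ a g = 0
      exact map_eq_zero_iff σ σ.injective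
    · intro g
      show g * g = γ (σ (a g) * φ (σ (a g)))
      rw [hφ, ← hN, hsq]

end Cfsg.Agent.Lib.Helper63.TypeARecog
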